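import Cfsg.Agent.Jf18.VShape

/-!
An involution centralising the element of order three lies in an elementary abelian subgroup of
order `2 ^ 11`.
-/

set_option autoImplicit false

namespace CfsgLib.J4Type67.Setup

universe u

variable {H : Type u} [Group H] [Finite H] (d : Setup H)

include d in
theorem exists_elementary : ∃ V : Subgroup H, (∀ a ∈ V, a * a = 1) ∧ Nat.card V = 2 ^ 11 := by
  haveI : Fact (Nat.Prime 2) := ⟨Nat.prime_two⟩
  obtain ⟨T⟩ : Nonempty (Sylow 2 H) := inferInstance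
  obtain ⟨V, ⟨-, ⟨-, hs⟩, hc⟩, -⟩ := d.existsUnique_elementary T
  exact ⟨V, hs, hc⟩

theorem sigma_surjective : Function.Surjective d.sigma := by
  intro m
  have h : MulAut.conj m ∈ d.C.map d.π := by rw [d.map_C]; exact ⟨m, rfl⟩
  obtain ⟨x, hx, hxm⟩ := h
  exact ⟨⟨x, hx⟩, conj_injective_M (by rw [d.conj_sigma]; exact hxm)⟩

/-- An involution of the centraliser of `p` lying over the hexad group of `V` lies in `V`. -/
theorem mem_of_sigma {V : Subgroup H} (T : Sylow 2 H) {g : M} (hVT : V ≤ (T : Subgroup H))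
    (hVs : ∀ a ∈ V, a * a = 1) (hV : Nat.card V = 2 ^ 11)
    (hU : V ⊓ d.E = d.pre (d.rep.F (conjS g hex)))
    (hsurj : ∀ a ∈ conjS g hex, ∃ v ∈ V, d.π v = MulAut.conj a)
    {u : H} (hu : u ∈ d.C) (h2 : u * u = 1) (hσ : d.sigma ⟨u, hu⟩ ∈ conjS g hex) : u ∈ V := by
  obtain ⟨v, hv, hva⟩ := hsurj _ hσ
  have ha : d.sigma ⟨u, hu⟩ * d.sigma ⟨u, hu⟩ = 1 := by
    rw [← map_mul, show (⟨u, hu⟩ : d.C) * ⟨u, hu⟩ = 1 from Subtype.ext h2, map_one]
  obtain ⟨c, -, hce, hcσ, hcc⟩ := d.decomp T (hVT hv) hva ha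
  -- `u` and `c` differ by an element of the centre
  have hk : u⁻¹ * (c : H) ∈ d.π.ker := by
    rw [MonoidHom.mem_ker, map_mul, map_inv, ← d.conj_sigma ⟨u, hu⟩, ← d.conj_sigma c, hcσ,
      inv_mul_cancel]
  obtain ⟨i, hi⟩ := d.ker_decomp hk
  have hpC : d.p ∈ d.C := d.mem_C.2 (Commute.refl _)
  have hzi : u⁻¹ * (c : H) * d.p ^ i ∈ d.Z :=
    d.mem_Z_of_C hi (mul_mem (mul_mem (inv_mem hu) c.2) (zpow_mem hpC i))
  set ζ := u⁻¹ * (c : H) * d.p ^ i with hζ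
  have hc : (c : H) = u * ζ * (d.p ^ i)⁻¹ := by rw [hζ]; group
  have hcc' : (c : H) * c ∈ d.Z := by
    rw [← QuotientGroup.mk_mul, QuotientGroup.eq_one_iff] at hcc
    exact hcc
  have hζc : ∀ x : H, Commute ζ x := fun x => by
    rcases d.mem_Z.1 hzi with h | h <;> rw [h]
    exacts [Commute.one_left x, d.zc x]
  have hpi : Commute u ((d.p ^ i)⁻¹) := ((d.mem_C.1 hu).zpow_right i).inv_right
  have hp2 : (d.p ^ i)⁻¹ * (d.p ^ i)⁻¹ ∈ d.Z := by
    have e : (c : H) * c = ζ * ζ * ((d.p ^ i)⁻¹ * (d.p ^ i)⁻¹) := by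
      rw [hc]
      calc u * ζ * (d.p ^ i)⁻¹ * (u * ζ * (d.p ^ i)⁻¹)
          = u * ζ * ((d.p ^ i)⁻¹ * u) * (ζ * (d.p ^ i)⁻¹) := by simp only [mul_assoc]
        _ = u * ζ * (u * (d.p ^ i)⁻¹) * (ζ * (d.p ^ i)⁻¹) := by rw [hpi.eq]
        _ = u * (ζ * u) * ((d.p ^ i)⁻¹ * ζ) * (d.p ^ i)⁻¹ := by simp only [mul_assoc]
        _ = u * (u * ζ) * (ζ * (d.p ^ i)⁻¹) * (d.p ^ i)⁻¹ := by
            rw [(hζc u).eq, ← (hζc (d.p ^ i)⁻¹).eq]
        _ = u * u * (ζ * ζ) * ((d.p ^ i)⁻¹ * (d.p ^ i)⁻¹) := by simp only [mul_assoc]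
        _ = _ := by rw [h2, one_mul]
    rw [e] at hcc'
    exact (Subgroup.mul_mem_cancel_left _ (mul_mem hzi hzi)).1 hcc'
  have hq : (d.p ^ i)⁻¹ = 1 := by
    set q := (d.p ^ i)⁻¹
    have h3 : q ^ 3 = 1 := by
      simp only [q, inv_pow]
      rw [← zpow_natCast, ← zpow_mul, mul_comm, zpow_mul, zpow_natCast, d.p3, one_zpow, inv_one]
    have h4 : q * q * (q * q) = 1 := by
      rcases d.mem_Z.1 hp2 with h | h <;> rw [h]
      exacts [one_mul 1, d.zz]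
    rw [show q * q * (q * q) = q ^ 3 * q by simp [pow_succ, mul_assoc], h3, one_mul] at h4
    exact h4
  rw [hq, mul_one] at hc
  have huv : u * v⁻¹ ∈ d.E := by
    have : u * v⁻¹ = ζ⁻¹ * (v * (c : H)⁻¹)⁻¹ := by
      rw [hc]
      calc u * v⁻¹ = ζ⁻¹ * (ζ * u) * v⁻¹ := by group
        _ = ζ⁻¹ * (v * (u * ζ)⁻¹)⁻¹ := by rw [(hζc u).eq]; group
    rw [this]
    exact mul_mem (inv_mem (d.Z_le_E hzi)) (inv_mem hce)
  -- `u` centralises `V ⊓ E`
  set A := conjS g hex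
  have hpA : conjS (d.sigma ⟨d.p, hpC⟩) A = A := by
    have h : d.sigma ⟨d.p, hpC⟩ = 1 := d.rep.proj_p
    rw [h]
    ext a; simp
  have hcomm : ∀ x ∈ V ⊓ d.E, u * x * u⁻¹ * x⁻¹ ∈ d.Z := by
    intro x hx
    have e : u * x * u⁻¹ = u * v⁻¹ * x * (u * v⁻¹)⁻¹ := by
      have : v⁻¹ * x * v = x := by
        rw [mul_assoc, comm_of_sq hVs hx.1 hv, ← mul_assoc, inv_mul_cancel, one_mul]
      calc u * x * u⁻¹ = u * (v⁻¹ * x * v) * u⁻¹ := by rw [this]
        _ = _ := by group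
    rw [e]
    exact d.commE' huv hx.2
  have hcent : ∀ x ∈ V ⊓ d.E, u * x * u⁻¹ = x := by
    intro x hx
    obtain ⟨hxE, hxF⟩ := d.mem_pre.1 (hU.le hx)
    haveI := d.rep.finite_W
    let f : d.rep.F A → d.rep.F A := fun w => ⟨d.actH d.p w * w, mul_mem
      (d.rep.F_invariant (x := QuotientGroup.mk ⟨d.p, hpC⟩) hpA w.2) w.2⟩
    have hf : Function.Injective f := by
      intro a b e
      have e' : d.actH d.p a.1 * a.1 = d.actH d.p b.1 * b.1 := congrArg Subtype.val e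
      have h := d.rep.fpf (a.1 * b.1) (by
        show d.actH d.p (a.1 * b.1) = _
        rw [map_mul]
        have := congrArg (fun w => w * a.1 * d.actH d.p b.1) e'
        calc d.actH d.p a.1 * d.actH d.p b.1 = d.actH d.p a.1 * a.1 * (a.1 * d.actH d.p b.1) := by
              rw [mul_assoc, ← mul_assoc a.1 a.1, d.rep.sq, one_mul]
          _ = d.actH d.p b.1 * b.1 * (a.1 * d.actH d.p b.1) := by rw [e']
          _ = b.1 * a.1 * (d.actH d.p b.1 * d.actH d.p b.1) := by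
              rw [d.rep.comm (d.actH d.p b.1) b.1, mul_assoc, d.rep.comm (d.actH d.p b.1),
                mul_assoc, mul_assoc]
          _ = a.1 * b.1 := by rw [d.rep.sq, mul_one, d.rep.comm])
      refine Subtype.ext ?_
      calc a.1 = a.1 * (b.1 * b.1) := by rw [d.rep.sq, mul_one]
        _ = b.1 := by rw [← mul_assoc, h, one_mul]
    obtain ⟨⟨w, hw⟩, hwe⟩ := (Finite.injective_iff_surjective.1 hf) ⟨d.q x hxE, hxF⟩
    obtain ⟨y, hy, rfl⟩ := d.q_surj w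
    have hyU : y ∈ V ⊓ d.E := hU.ge (d.mem_pre.2 ⟨hy, hw⟩)
    have hye : d.q (d.p * y * d.p⁻¹ * y) (mul_mem (d.normalE _ _ hy) hy) = d.q x hxE := by
      rw [d.q_mul (d.normalE _ _ hy) hy, ← d.actH_q]
      exact congrArg Subtype.val hwe
    rw [q_eq_iff] at hye
    set η := (d.p * y * d.p⁻¹ * y)⁻¹ * x with hη
    have hx' : x = d.p * y * d.p⁻¹ * y * η := by rw [hη]; group
    set θ := u * y * u⁻¹ * y⁻¹ with hθ
    have hθZ : θ ∈ d.Z := hcomm y hyU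
    have hpu : u * d.p = d.p * u := (d.mem_C.1 hu).eq
    have hy1 : u * y * u⁻¹ = θ * y := by rw [hθ]; group
    have hy2 : u * (d.p * y * d.p⁻¹) * u⁻¹ = θ * (d.p * y * d.p⁻¹) := by
      calc u * (d.p * y * d.p⁻¹) * u⁻¹ = u * d.p * y * (u * d.p)⁻¹ := by group
        _ = d.p * (u * y * u⁻¹) * d.p⁻¹ := by rw [hpu]; group
        _ = d.p * θ * d.p⁻¹ * (d.p * y * d.p⁻¹) := by rw [hy1]; group
        _ = θ * (d.p * y * d.p⁻¹) := by rw [d.z_conj _ hθZ]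
    have hθθ : θ * θ = 1 := by
      rcases d.mem_Z.1 hθZ with h | h <;> rw [h]
      exacts [one_mul 1, d.zz]
    have hθc : ∀ h : H, Commute θ h := fun h => by
      rcases d.mem_Z.1 hθZ with e | e <;> rw [e]
      exacts [Commute.one_left h, d.zc h]
    rw [hx']
    calc u * (d.p * y * d.p⁻¹ * y * η) * u⁻¹
        = u * (d.p * y * d.p⁻¹) * u⁻¹ * (u * y * u⁻¹) * (u * η * u⁻¹) := by group
      _ = θ * (d.p * y * d.p⁻¹) * (θ * y) * η := by rw [hy1, hy2, d.z_conj _ hye]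
      _ = θ * ((d.p * y * d.p⁻¹) * θ) * y * η := by group
      _ = θ * θ * (d.p * y * d.p⁻¹ * y * η) := by rw [← (hθc _).eq]; group
      _ = _ := by rw [hθθ, one_mul]
  -- so `u * v⁻¹` centralises it and lies in it
  have hW : V ⊓ d.E ≤ d.E ⊓ Subgroup.centralizer ((V ⊓ d.E : Subgroup H) : Set H) := fun x hx =>
    ⟨hx.2, Subgroup.mem_centralizer_iff.2 fun y hy => comm_of_sq hVs hy.1 hx.1⟩
  have hcardU : Nat.card ↥(V ⊓ d.E) = 128 := by
    rw [hU, d.card_pre, d.rep.card_F_conj, d.rep.card_F_hex]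
  have hz : d.z ∈ V ⊓ d.E := hU.ge (d.mem_pre.2 ⟨d.zmem, by
    rw [(d.q_one_iff).2 (Subgroup.mem_zpowers _)]; exact one_mem _⟩)
  have h14 := d.card_centralizer_eq inf_le_right hz
  rw [hcardU] at h14
  have heq := Subgroup.eq_of_le_of_card_ge hW (by rw [hcardU]; omega)
  have huvU : u * v⁻¹ ∈ V ⊓ d.E := by
    rw [heq]
    refine ⟨huv, Subgroup.mem_centralizer_iff.2 fun y hy => ?_⟩
    have hv' : v⁻¹ * y * v = y := by
      rw [mul_assoc, comm_of_sq hVs hy.1 hv, ← mul_assoc, inv_mul_cancel, one_mul]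
    have : u * v⁻¹ * y * (u * v⁻¹)⁻¹ = y := by
      calc u * v⁻¹ * y * (u * v⁻¹)⁻¹ = u * (v⁻¹ * y * v) * u⁻¹ := by group
        _ = y := by rw [hv', hcent y hy]
    exact (mul_inv_eq_iff_eq_mul.1 this).symm
  simpa using mul_mem huvU.1 hv

include d in
/-- Every involution centralising `p` lies in an elementary abelian subgroup of order `2 ^ 11`. -/
theorem exists_elementary_of_commute
    (hhex : ∀ a : M, orderOf a = 2 → ∃ g : M, a ∈ conjS g hex)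
    {u : H} (hu : u ∈ d.C) (h2 : u * u = 1) :
    ∃ V : Subgroup H, u ∈ V ∧ (∀ a ∈ V, a * a = 1) ∧ Nat.card V = 2 ^ 11 := by
  obtain ⟨V, hVs, hV⟩ := d.exists_elementary
  have hVp : IsPGroup 2 V := fun v => ⟨1, Subtype.ext (by simpa [pow_two] using hVs _ v.2)⟩
  obtain ⟨T, hVT⟩ := hVp.exists_le_sylow
  obtain ⟨S, hS⟩ := d.innPre_eq_sylow T
  obtain ⟨g, -, hcases⟩ := elem_in_sylow S
  rw [← hS] at hcases
  obtain ⟨h1, hU⟩ := d.shape T hcases hVT (fun a ha b hb => comm_of_sq hVs ha hb) hVs hV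
  obtain ⟨g', hg', -⟩ := d.exists_shape hVs hV
  have hmap : V.map d.π = (conjS g hex).map (MulAut.conj : M →* MulAut M) := by
    refine Subgroup.eq_of_le_of_card_ge (Subgroup.map_le_iff_le_comap.2 fun v hv => h1 v hv) ?_
    rw [hg', Subgroup.card_map_of_injective conj_injective_M,
      Subgroup.card_map_of_injective conj_injective_M, card_conjS, card_conjS]
  have hsurj : ∀ a ∈ conjS g hex, ∃ v ∈ V, d.π v = MulAut.conj a := fun a ha =>
    Subgroup.mem_map.1 (hmap.ge ⟨a, ha, rfl⟩)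
  set a := d.sigma ⟨u, hu⟩
  obtain ⟨k, hk⟩ : ∃ k : M, k * a * k⁻¹ ∈ conjS g hex := by
    by_cases ha1 : a = 1
    · exact ⟨1, by rw [ha1]; simp⟩
    · haveI : Fact (Nat.Prime 2) := ⟨Nat.prime_two⟩
      have ha2 : orderOf a = 2 := orderOf_eq_prime (by
        rw [pow_two, ← map_mul, show (⟨u, hu⟩ : d.C) * ⟨u, hu⟩ = 1 from Subtype.ext h2, map_one]) ha1
      obtain ⟨b, hb⟩ := hhex a ha2
      rw [mem_conjS] at hb
      refine ⟨g * b⁻¹, mem_conjS.2 ?_⟩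
      simpa [mul_assoc] using hb
  obtain ⟨c, hc⟩ := d.sigma_surjective k
  have hu' : (c : H) * u * (c : H)⁻¹ ∈ d.C := mul_mem (mul_mem c.2 hu) (inv_mem c.2)
  have hm := d.mem_of_sigma T hVT hVs hV hU hsurj hu'
    (by rw [show (c : H) * u * (c : H)⁻¹ * ((c : H) * u * (c : H)⁻¹) = c * (u * u) * (c : H)⁻¹ by
      group, h2]; simp)
    (by
      rw [show (⟨(c : H) * u * (c : H)⁻¹, hu'⟩ : d.C) = c * ⟨u, hu⟩ * c⁻¹ from rfl, map_mul,
        map_mul, map_inv, hc]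
      exact hk)
  refine ⟨conjS (c : H)⁻¹ V, ?_, ?_, by rw [card_conjS, hV]⟩
  · rw [mem_conjS]
    simpa using hm
  · rintro _ ⟨b, hb, rfl⟩
    rw [← map_mul, hVs b hb, map_one]

end CfsgLib.J4Type67.Setup
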