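import Cfsg.Agent.Mathieu.OutLarge

/-!
The stabiliser in `M24` of a pair of points is the automorphism group of `M22`.
-/

set_option autoImplicit false

open scoped Pointwise

namespace CfsgLib.J4Type13

open Cfsg CfsgLib.Golay CfsgLib.Mathieu

/-- The stabiliser of the two base points. -/
abbrev pairStab : Subgroup (Equiv.Perm GolayPt) :=
  M24 ⊓ MulAction.stabilizer (Equiv.Perm GolayPt) ({none, some 0} : Set GolayPt)

theorem pairStab_cases {x : Equiv.Perm GolayPt} (hx : x ∈ pairStab) :
    (x none = none ∧ x (some 0) = some 0) ∨ (x none = some 0 ∧ x (some 0) = none) := by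
  have h : x • ({none, some 0} : Set GolayPt) = {none, some 0} := hx.2
  rw [Set.smul_set_insert, Set.smul_set_singleton] at h
  exact Set.pair_eq_pair_iff.1 h

theorem pairStab_normalizes {x : Equiv.Perm GolayPt} (hx : x ∈ pairStab) (g : Equiv.Perm GolayPt) :
    g ∈ fixPt (fixPt M24 none) (some 0) ↔ x * g * x⁻¹ ∈ fixPt (fixPt M24 none) (some 0) := by
  show ((g ∈ M24 ∧ g • (none : GolayPt) = none) ∧ g • (some 0 : GolayPt) = some 0) ↔
    ((x * g * x⁻¹ ∈ M24 ∧ (x * g * x⁻¹) • (none : GolayPt) = none) ∧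
      (x * g * x⁻¹) • (some 0 : GolayPt) = some 0)
  rw [conj_mem_M24_iff hx.1]
  rcases pairStab_cases hx with ⟨h1, h2⟩ | ⟨h1, h2⟩
  · rw [conj_fix_iff x g none none h1, conj_fix_iff x g (some 0) (some 0) h2]
  · rw [conj_fix_iff x g (some 0) none h2, conj_fix_iff x g none (some 0) h1]
    tauto

/-- Conjugation. -/
def stabHom : ↥pairStab →* MulAut ↥(fixPt (fixPt M24 none) (some 0)) :=
  MonoidHom.mk' (fun x => conjAutOf x.1 (pairStab_normalizes x.2)) fun x y => by
    refine MulEquiv.ext fun g => Subtype.ext ?_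
    simp [MulAut.mul_apply, mul_assoc]

theorem stabHom_bijective : Function.Bijective stabHom := by
  constructor
  · refine (injective_iff_map_eq_one _).2 fun x hx => ?_
    have hcent : ∀ g : fixPt (fixPt M24 none) (some 0),
        (x : Equiv.Perm GolayPt) * g = g * (x : Equiv.Perm GolayPt) := fun g => by
      have e : (x : Equiv.Perm GolayPt) * g * (x : Equiv.Perm GolayPt)⁻¹ = g :=
        congrArg (fun f : MulAut (fixPt (fixPt M24 none) (some 0)) => (f g : Equiv.Perm GolayPt)) hx
      exact mul_inv_eq_iff_eq_mul.1 e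
    have hfixp : ∀ p, p ≠ none → p ≠ some 0 → (x : Equiv.Perm GolayPt) p = p := by
      intro p hp1 hp2
      by_contra hne
      have hq : (x : Equiv.Perm GolayPt) p ≠ none ∧ (x : Equiv.Perm GolayPt) p ≠ some 0 := by
        rcases pairStab_cases x.2 with ⟨h1, h2⟩ | ⟨h1, h2⟩
        · exact ⟨fun e => hp1 (x.1.injective (e.trans h1.symm)),
            fun e => hp2 (x.1.injective (e.trans h2.symm))⟩
        · exact ⟨fun e => hp2 (x.1.injective (e.trans h2.symm)),
            fun e => hp1 (x.1.injective (e.trans h1.symm))⟩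
      obtain ⟨hq1, hq2⟩ := hq
      obtain ⟨r, -, hr⟩ := Finset.exists_mem_notMem_of_card_lt_card
        (show ({none, some 0, p} ∪ {(x : Equiv.Perm GolayPt) p} : Finset GolayPt).card <
            (Finset.univ : Finset GolayPt).card from
          lt_of_le_of_lt ((Finset.card_union_le _ _).trans
            (Nat.add_le_add Finset.card_le_three (Finset.card_singleton _).le)) (by decide))
      simp only [Finset.mem_union, Finset.mem_insert, Finset.mem_singleton, not_or] at hr
      obtain ⟨k, hk, hkx⟩ := exists_map_four (x := ![none, some 0, p, (x : Equiv.Perm GolayPt) p])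
        (y := ![none, some 0, p, r])
        (by
          intro i j hij
          fin_cases i <;> fin_cases j <;>
            simp [hp1, hp2, hq1, hq2, hne, Ne.symm hne, Ne.symm hp1, Ne.symm hp2,
              Ne.symm hq1, Ne.symm hq2] at hij ⊢)
        (by
          intro i j hij
          fin_cases i <;> fin_cases j <;>
            simp [hp1, hp2, hr.1.1, hr.1.2.1, hr.1.2.2, Ne.symm hp1, Ne.symm hp2,
              Ne.symm hr.1.1, Ne.symm hr.1.2.1, Ne.symm hr.1.2.2] at hij ⊢)
      have e := congrArg (fun σ : Equiv.Perm GolayPt => σ p) (hcent ⟨k, ⟨hk, hkx 0⟩, hkx 1⟩)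
      simp only [Equiv.Perm.mul_apply] at e
      rw [show k p = p from hkx 2, show k ((x : Equiv.Perm GolayPt) p) = r from hkx 3] at e
      exact hr.2 e.symm
    refine Subtype.ext (eq_one_of_nine_fixed x.2.1 ?_)
    have hsub : (({none, some 0} : Finset GolayPt)ᶜ) ⊆ fixedPts (x : Equiv.Perm GolayPt) :=
      fun p hp => by
        simp only [Finset.mem_compl, Finset.mem_insert, Finset.mem_singleton, not_or] at hp
        exact mem_fixedPts.2 (hfixp p hp.1 hp.2)
    refine le_trans ?_ (Finset.card_le_card hsub)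
    rw [Finset.card_compl, Finset.card_pair (by simp)]
    decide
  · intro φ
    obtain ⟨σ, hn, h0, hσ⟩ := exists_perm_M22 φ
    have hset : ∀ τ : Equiv.Perm GolayPt, (τ none = none ∧ τ (some 0) = some 0) ∨
        (τ none = some 0 ∧ τ (some 0) = none) →
        τ ∈ MulAction.stabilizer (Equiv.Perm GolayPt) ({none, some 0} : Set GolayPt) := by
      intro τ h
      rw [MulAction.mem_stabilizer_iff, Set.smul_set_insert, Set.smul_set_singleton,
        Equiv.Perm.smul_def, Equiv.Perm.smul_def]
      rcases h with ⟨a, b⟩ | ⟨a, b⟩ <;> rw [a, b]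
      exact Set.pair_comm _ _
    rcases mem_M24_of_normalizes_M22 hn h0 (normalizes_of_aut φ hσ) with hM | hM
    · exact ⟨⟨σ, hM, hset σ (Or.inl ⟨hn, h0⟩)⟩, MulEquiv.ext fun g => Subtype.ext (hσ g).symm⟩
    · refine ⟨⟨swapPair * σ, hM, hset _ (Or.inr ⟨by simp [Equiv.Perm.mul_apply, hn, swapPair],
        by simp [Equiv.Perm.mul_apply, h0, swapPair]⟩)⟩, MulEquiv.ext fun g => Subtype.ext ?_⟩
      show swapPair * σ * g * (swapPair * σ)⁻¹ = (φ g : Equiv.Perm GolayPt)
      have hy := (φ g).2
      rw [show swapPair * σ * g * (swapPair * σ)⁻¹ =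
        swapPair * (σ * g * σ⁻¹) * swapPair⁻¹ by group, ← hσ g, swapPair_commutes hy.1.2 hy.2]

/-- The pair stabiliser is `Aut M22`. -/
theorem nonempty_pairStab_equiv : Nonempty (↥pairStab ≃* MulAut ↥Cfsg.Spor.M22) :=
  ⟨MulEquiv.ofBijective stabHom stabHom_bijective⟩

end CfsgLib.J4Type13
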