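import Cfsg.Agent.J4Type13.Torsor
import Cfsg.Agent.J4Type13.StabAut
import Cfsg.Agent.J4Type13.Invol
import Cfsg.Agent.Jf18.M22
import Cfsg.Agent.J4Type67.OfType
import Cfsg.Agent.Jf18.Basic

/-!
The centraliser of an involution outside the class of `z` in a group of Janko-four type, from the
local structure of the normalisers of the elementary abelian subgroups of order `2 ^ 11`.
-/

set_option autoImplicit false

namespace CfsgLib.J4Type13

open Cfsg
open scoped Pointwise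

variable {G : Type*} [Group G] [Finite G]

theorem elementary_of_sq {V : Subgroup G} (h : ∀ a ∈ V, a * a = 1) :
    Cfsg.IsElementaryAbelian 2 V := by
  refine (LocalP.isElementaryAbelian_iff).2 ⟨fun a ha b hb => J4Type67.comm_of_sq h ha hb,
    fun a ha => by rw [pow_two]; exact h a ha⟩

/-- The local facts used. -/
structure Facts (z : G) (P : Subgroup G) : Prop where
  hJ : Cfsg.IsOfJankoFourTypeWith z P
  normP : Subgroup.normalizer (P : Set G) ≤ Subgroup.centralizer ({z} : Set G)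
  oneClass : ∀ x y : G, orderOf x = 3 → orderOf y = 3 → IsConj x y
  normV : ∀ V : Subgroup G, Cfsg.IsElementaryAbelian 2 V → Nat.card ↥V = 2 ^ 11 →
    Subgroup.centralizer (V : Set G) ≤ V ∧ ∃ K : Subgroup G,
      K ≤ Subgroup.normalizer (V : Set G) ∧ K ⊓ V = ⊥ ∧ K ⊔ V = Subgroup.normalizer (V : Set G) ∧
      Cfsg.Spor.IsoM24 ↥K
  orbits : ∀ V : Subgroup G, Cfsg.IsElementaryAbelian 2 V → Nat.card ↥V = 2 ^ 11 →
    ∃ z' t : G, z' ∈ V ∧ t ∈ V ∧ t ≠ 1 ∧ IsConj z z' ∧ ¬ IsConj z t ∧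
    Set.ncard {v : G | ∃ n ∈ Subgroup.normalizer (V : Set G), n * z' * n⁻¹ = v} = 1771 ∧
    Set.ncard {v : G | ∃ n ∈ Subgroup.normalizer (V : Set G), n * t * n⁻¹ = v} = 276 ∧
    Subgroup.centralizer ({t} : Set G) ≤ Subgroup.normalizer (V : Set G)
  loc : ∀ V : Subgroup G, Cfsg.IsElementaryAbelian 2 V → Nat.card ↥V = 2 ^ 11 →
    ∀ v ∈ V, IsConj z v → ∃ Q : Subgroup G, LargeFischer45.Local v Q V

variable {z : G} {P : Subgroup G}

theorem card_normalizer {V K : Subgroup G} (hV : Nat.card ↥V = 2 ^ 11) (h1 : K ⊓ V = ⊥)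
    (h2 : K ⊔ V = Subgroup.normalizer (V : Set G)) (h3 : Cfsg.Spor.IsoM24 ↥K) :
    Nat.card ↥(Subgroup.normalizer (V : Set G)) = 2 ^ 11 * 244823040 := by
  obtain ⟨e⟩ := h3
  have hK : Nat.card ↥K = 244823040 := (Nat.card_congr e.toEquiv).trans Cfsg.Agent.S0364.result
  haveI : (V.subgroupOf (Subgroup.normalizer (V : Set G))).Normal := Subgroup.normal_in_normalizer
  have hKle : K ≤ Subgroup.normalizer (V : Set G) := h2 ▸ le_sup_left
  have hc : Subgroup.IsComplement' (K.subgroupOf (Subgroup.normalizer (V : Set G)))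
      (V.subgroupOf (Subgroup.normalizer (V : Set G))) := by
    apply Subgroup.isComplement'_of_disjoint_and_mul_eq_univ
    · rw [disjoint_iff, eq_bot_iff]
      intro x hx
      have : (x : G) ∈ K ⊓ V := ⟨hx.1, hx.2⟩
      rw [h1, Subgroup.mem_bot] at this
      exact Subgroup.mem_bot.2 (Subtype.ext this)
    · rw [← Subgroup.mul_normal, ← Subgroup.subgroupOf_sup hKle Subgroup.le_normalizer, h2,
        Subgroup.subgroupOf_self, Subgroup.coe_top]
  rw [← hc.card_mul, Nat.card_congr (Subgroup.subgroupOfEquivOfLe hKle).toEquiv,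
    Nat.card_congr (Subgroup.subgroupOfEquivOfLe Subgroup.le_normalizer).toEquiv, hK, hV,
    mul_comm]

/-- A member that is no conjugate of `z` is in the short orbit. -/
theorem Facts.exists_move (h : Facts z P) {V : Subgroup G} (hV : Cfsg.IsElementaryAbelian 2 V)
    (hc : Nat.card ↥V = 2 ^ 11) {t : G} (ht : t ∈ V) (ht1 : t ≠ 1) (htz : ¬ IsConj z t) :
    ∃ z' : G, z' ∈ V ∧ IsConj z z' ∧
      Subgroup.centralizer ({t} : Set G) ≤ Subgroup.normalizer (V : Set G) := by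
  obtain ⟨z', t', hz', ht', ht'1, hzz', htz', hA, hB, hC⟩ := h.orbits V hV hc
  refine ⟨z', hz', hzz', ?_⟩
  set A := {v : G | ∃ n ∈ Subgroup.normalizer (V : Set G), n * z' * n⁻¹ = v}
  set B := {v : G | ∃ n ∈ Subgroup.normalizer (V : Set G), n * t' * n⁻¹ = v}
  have hAc : ∀ v ∈ A, IsConj z v := fun v ⟨n, _, e⟩ => hzz'.trans (isConj_iff.2 ⟨n, e⟩)
  have hBc : ∀ v ∈ B, ¬ IsConj z v := fun v ⟨n, _, e⟩ hcv =>
    htz' (hcv.trans (isConj_iff.2 ⟨n, e⟩ : IsConj t' v).symm)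
  have hdis : Disjoint A B := Set.disjoint_left.2 fun v hv hv' => hBc v hv' (hAc v hv)
  have hz'1 : z' ≠ 1 := by
    rintro rfl
    have h2 := h.hJ.1
    rw [isConj_one_left.1 hzz', orderOf_one] at h2
    norm_num at h2
  have hsub : A ∪ B ⊆ (V : Set G) \ {1} := by
    rintro v (⟨n, hn, rfl⟩ | ⟨n, hn, rfl⟩)
    · exact ⟨(Subgroup.mem_normalizer_iff.1 hn z').1 hz', fun e => hz'1 (conj_eq_one_iff.1 e)⟩
    · exact ⟨(Subgroup.mem_normalizer_iff.1 hn t').1 ht', fun e => ht'1 (conj_eq_one_iff.1 e)⟩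
  have hAB : (A ∪ B).ncard = 2047 := by
    rw [Set.ncard_union_eq hdis, hA, hB]
  have hVd : ((V : Set G) \ {1}).ncard = 2047 := by
    rw [Set.ncard_sdiff_singleton_of_mem (show (1 : G) ∈ (V : Set G) from one_mem V),
      ← Nat.card_coe_set_eq, show Nat.card ↥(V : Set G) = 2 ^ 11 from hc]
    norm_num
  have heq := Set.eq_of_subset_of_ncard_le hsub (by rw [hAB, hVd])
  have htm : t ∈ A ∪ B := heq.ge ⟨ht, ht1⟩
  rcases htm with htA | ⟨n, hn, rfl⟩
  · exact absurd (hAc t htA) htz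
  · intro x hx
    have hx' : n⁻¹ * x * n ∈ Subgroup.centralizer ({t'} : Set G) := by
      rw [Subgroup.mem_centralizer_singleton_iff] at hx ⊢
      have := congrArg (fun y => n⁻¹ * y * n) hx
      simpa [mul_assoc] using this
    have := mul_mem (mul_mem hn (hC hx')) (inv_mem hn)
    simpa [mul_assoc] using this

/-- The elements of order three and the involutions: every involution lies in some `V`. -/
theorem Facts.exists_elementary (h : Facts z P) {t : G} (ht : orderOf t = 2) :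
    ∃ V : Subgroup G, t ∈ V ∧ Cfsg.IsElementaryAbelian 2 V ∧ Nat.card ↥V = 2 ^ 11 := by
  haveI : Fact (Nat.Prime 2) := ⟨Nat.prime_two⟩
  obtain ⟨c, rfl, hcP⟩ := Jf18.exists_ctx h.hJ
  have hcentp : Subgroup.centralizer ({c.p} : Set G) ≤ c.H := fun x hx => h.normP (by
    rw [← hcP]
    refine Subgroup.centralizer_le_normalizer _ (Subgroup.mem_centralizer_iff.2 ?_)
    rintro _ ⟨i, rfl⟩
    have hc' : Commute x c.p := Subgroup.mem_centralizer_singleton_iff.1 hx
    exact (hc'.zpow_right i).eq.symm)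
  -- transport of subgroups of the centraliser
  have push : ∀ W : Subgroup c.H, (∀ a ∈ W, a * a = 1) → Nat.card ↥W = 2 ^ 11 →
      Cfsg.IsElementaryAbelian 2 (W.map c.H.subtype) ∧
        Nat.card ↥(W.map c.H.subtype) = 2 ^ 11 := fun W hs hcd => by
    refine ⟨elementary_of_sq ?_, by rw [Subgroup.card_map_of_injective c.H.subtype_injective, hcd]⟩
    rintro _ ⟨a, ha, rfl⟩
    rw [← map_mul, hs a ha, map_one]
  obtain ⟨W₀, hW₀s, hW₀c⟩ := c.setup.exists_elementary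
  obtain ⟨hV₀, hV₀c⟩ := push W₀ hW₀s hW₀c
  set V₀ := W₀.map c.H.subtype
  -- a Sylow 2-subgroup of the normaliser is one of the group
  obtain ⟨T, hT⟩ := (LocalP.isPGroup_of_isElementaryAbelian hV₀).exists_le_sylow
  have hTN : (T : Subgroup G) ≤ Subgroup.normalizer (V₀ : Set G) := by
    intro x hx
    have hu := J4Type67.existsUnique_sylow h.hJ T
    have key : ∀ y ∈ (T : Subgroup G), V₀.map (MulAut.conj y).toMonoidHom = V₀ := fun y hy =>
      hu.unique ⟨by
        rintro _ ⟨a, ha, rfl⟩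
        exact mul_mem (mul_mem hy (hT ha)) (inv_mem hy),
        LocalP.isElementaryAbelian_map _ hV₀,
        by rw [Subgroup.card_map_of_injective (MulAut.conj y).injective, hV₀c]⟩ ⟨hT, hV₀, hV₀c⟩
    refine Subgroup.mem_normalizer_iff.2 fun a => ⟨fun ha => ?_, fun ha => ?_⟩
    · exact (key x hx).le ⟨a, ha, rfl⟩
    · have := (key x⁻¹ (inv_mem hx)).le ⟨_, ha, rfl⟩
      simpa [mul_assoc] using this
  -- move the involution into the normaliser
  obtain ⟨g, s, hs, rfl⟩ : ∃ g s : G, s ∈ (T : Subgroup G) ∧ g * s * g⁻¹ = t := by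
    have hp : IsPGroup 2 ↥(Subgroup.zpowers t) :=
      IsPGroup.of_card (n := 1) (by rw [Nat.card_zpowers, ht, pow_one])
    obtain ⟨S, hS⟩ := hp.exists_le_sylow
    obtain ⟨g, hg⟩ := MulAction.exists_smul_eq G T S
    rw [← hg] at hS
    obtain ⟨s, hs, e⟩ := hS (Subgroup.mem_zpowers t)
    exact ⟨g, s, hs, e⟩
  rw [← MulAut.conj_apply, MulEquiv.orderOf_eq] at ht
  have hss : s * s = 1 := by rw [← pow_two, ← ht, pow_orderOf_eq_one]
  suffices ∃ V : Subgroup G, s ∈ V ∧ Cfsg.IsElementaryAbelian 2 V ∧ Nat.card ↥V = 2 ^ 11 by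
    obtain ⟨V, h1, h2, h3⟩ := this
    exact ⟨V.map (MulAut.conj g).toMonoidHom, ⟨s, h1, rfl⟩, LocalP.isElementaryAbelian_map _ h2,
      by rw [Subgroup.card_map_of_injective (MulAut.conj g).injective, h3]⟩
  by_cases hsV : s ∈ V₀
  · exact ⟨V₀, hsV, hV₀, hV₀c⟩
  obtain ⟨hC₀, K, -, hK1, hK2, hK3⟩ := h.normV V₀ hV₀ hV₀c
  obtain ⟨z', t', hz', ht', ht'1, hzz', htz', -⟩ := h.orbits V₀ hV₀ hV₀c
  obtain ⟨Q, L⟩ := h.loc V₀ hV₀ hV₀c z' hz' hzz'
  obtain ⟨M⟩ := nonempty_model L hC₀ (card_normalizer hV₀c hK1 hK2 hK3) ht' ht'1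
    fun hc => htz' (hzz'.trans hc)
  obtain ⟨k, hk, hks⟩ := M.exists_three (hTN hs) hsV hss
  obtain ⟨a, ha⟩ := isConj_iff.1 (h.oneClass k c.p hk c.orderOf_p)
  have hs' : Commute (a * s * a⁻¹) c.p := by
    rw [← ha]
    exact hks.symm.map (MulAut.conj a)
  have hsH : a * s * a⁻¹ ∈ c.H := hcentp (Subgroup.mem_centralizer_singleton_iff.2 hs')
  obtain ⟨W, hW, hWs, hWc⟩ := c.setup.exists_elementary_of_commute
    (fun a ha => Jf18.M22.exists_hex ha) (u := ⟨a * s * a⁻¹, hsH⟩)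
    (c.setup.mem_C.2 (Subtype.ext hs'.eq))
    (Subtype.ext (by
      show a * s * a⁻¹ * (a * s * a⁻¹) = 1
      rw [show a * s * a⁻¹ * (a * s * a⁻¹) = a * (s * s) * a⁻¹ by group, hss]
      simp))
  obtain ⟨hW', hWc'⟩ := push W hWs hWc
  refine ⟨(W.map c.H.subtype).map (MulAut.conj a⁻¹).toMonoidHom, ⟨_, ⟨_, hW, rfl⟩, ?_⟩,
    LocalP.isElementaryAbelian_map _ hW',
    by rw [Subgroup.card_map_of_injective (MulAut.conj a⁻¹).injective, hWc']⟩
  simp [mul_assoc]

/-- The centraliser of an involution that is not a conjugate of `z`. -/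
theorem Facts.centralizer (h : Facts z P) {t : G} (ht : orderOf t = 2) (hnc : ¬ IsConj z t) :
    ∃ V K : Subgroup G, V ≤ Subgroup.centralizer ({t} : Set G) ∧
      K ≤ Subgroup.centralizer ({t} : Set G) ∧
      Subgroup.centralizer ({t} : Set G) ≤ Subgroup.normalizer (V : Set G) ∧
      Cfsg.IsElementaryAbelian 2 V ∧ Nat.card ↥V = 2 ^ 11 ∧
      K ⊓ V = ⊥ ∧ K ⊔ V = Subgroup.centralizer ({t} : Set G) ∧
      Nonempty (↥K ≃* MulAut ↥Cfsg.Spor.M22) := by
  classical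
  have ht1 : t ≠ 1 := fun e => by rw [e, orderOf_one] at ht; norm_num at ht
  obtain ⟨V, htV, hV, hVc⟩ := h.exists_elementary ht
  obtain ⟨z', hz', hzz', hCN⟩ := h.exists_move hV hVc htV ht1 hnc
  obtain ⟨hC, K₀, hK₀N, hK1, hK2, hK3⟩ := h.normV V hV hVc
  obtain ⟨Q, L⟩ := h.loc V hV hVc z' hz' hzz'
  obtain ⟨M⟩ := nonempty_model L hC (card_normalizer hVc hK1 hK2 hK3) htV ht1
    fun hc => hnc (hzz'.trans hc)
  set C := Subgroup.centralizer ({t} : Set G) with hCdef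
  have hVC : V ≤ C := fun v hv =>
    Subgroup.mem_centralizer_singleton_iff.2 (M.comm hv htV)
  haveI : (V.subgroupOf (Subgroup.normalizer (V : Set G))).Normal := Subgroup.normal_in_normalizer
  have hsplit : ∀ x ∈ Subgroup.normalizer (V : Set G), ∃ k ∈ K₀, ∃ v ∈ V, x = k * v := by
    intro x hx
    have hx' : (⟨x, hx⟩ : ↥(Subgroup.normalizer (V : Set G))) ∈
        K₀.subgroupOf _ ⊔ V.subgroupOf (Subgroup.normalizer (V : Set G)) := by
      rw [← Subgroup.subgroupOf_sup hK₀N Subgroup.le_normalizer, hK2, Subgroup.subgroupOf_self]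
      exact Subgroup.mem_top _
    rw [← SetLike.mem_coe, Subgroup.mul_normal] at hx'
    obtain ⟨k, hk, v, hv, e⟩ := hx'
    exact ⟨k, hk, v, hv, (congrArg Subtype.val e).symm⟩
  refine ⟨V, K₀ ⊓ C, hVC, inf_le_right, hCN, hV, hVc, ?_, le_antisymm (sup_le inf_le_right hVC) ?_,
    ?_⟩
  · rw [eq_bot_iff, ← hK1]
    exact inf_le_inf_right _ inf_le_left
  · intro x hx
    obtain ⟨k, hk, v, hv, rfl⟩ := hsplit x (hCN hx)
    have hkC : k ∈ C := by
      have := mul_mem hx (inv_mem (hVC hv))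
      rwa [mul_inv_cancel_right] at this
    exact mul_mem (Subgroup.mem_sup_left ⟨hk, hkC⟩) (Subgroup.mem_sup_right hv)
  · let f : ↥(K₀ ⊓ C) →* ↥pairStab := MonoidHom.codRestrict
      ((Cfsg.M24).subtype.comp (M.Φ.comp (Subgroup.inclusion (inf_le_left.trans hK₀N)))) _
      fun k => ⟨(M.Φ _).2, (M.fix_iff _).1
        (mul_inv_eq_iff_eq_mul.2 (Subgroup.mem_centralizer_singleton_iff.1 k.2.2))⟩
    have hf : Function.Bijective f := by
      constructor
      · refine (injective_iff_map_eq_one _).2 fun k hk => ?_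
        have h1 : M.Φ (Subgroup.inclusion (inf_le_left.trans hK₀N) k) = 1 :=
          Subtype.ext (congrArg Subtype.val hk :)
        have h2 : (k : G) ∈ K₀ ⊓ V := ⟨k.2.1, (M.mem_ker _).1 h1⟩
        rw [hK1, Subgroup.mem_bot] at h2
        exact Subtype.ext h2
      · rintro ⟨σ, hσ, hσs⟩
        obtain ⟨n, hn⟩ := M.surj ⟨σ, hσ⟩
        obtain ⟨k, hk, v, hv, hkv⟩ := hsplit n n.2
        have hkΦ : M.Φ ⟨k, hK₀N hk⟩ = ⟨σ, hσ⟩ := by
          have e : n = ⟨k, hK₀N hk⟩ * ⟨v, Subgroup.le_normalizer hv⟩ := Subtype.ext hkv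
          rw [← hn, e, map_mul, (M.mem_ker ⟨v, Subgroup.le_normalizer hv⟩).2 hv, mul_one]
        have hkC : k ∈ C := Subgroup.mem_centralizer_singleton_iff.2
          (mul_inv_eq_iff_eq_mul.1 ((M.fix_iff ⟨k, hK₀N hk⟩).2 (by rw [hkΦ]; exact hσs)))
        exact ⟨⟨k, hk, hkC⟩, Subtype.ext (congrArg Subtype.val hkΦ :)⟩
    obtain ⟨e⟩ := nonempty_pairStab_equiv
    exact ⟨(MulEquiv.ofBijective f hf).trans e⟩

end CfsgLib.J4Type13
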