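import Cfsg.Agent.Mathieu.Classes

/-!
The two classes of involutions of `M24`: commuting elements of order three, and pair sets whose
images under the commutator map are independent modulo the Golay code.
-/

set_option autoImplicit false

namespace CfsgLib.J4Type13

open Cfsg CfsgLib.Golay CfsgLib.Mathieu
open scoped Pointwise symmDiff

/-- An element of order three commuting with the free representative. -/
def tauFree : List ℕ :=
  [13,15,22,11,17,7,1,21,2,0,16,20,23,9,10,6,14,19,12,4,3,5,8,18]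

/-- Two elements of order seven commuting with the octad representative, product of order three. -/
def sevA : List ℕ :=
  [0,1,19,16,4,12,20,14,11,13,7,6,17,2,23,22,18,10,8,21,3,15,9,5]

/-- The second one. -/
def sevB : List ℕ :=
  [0,1,13,20,10,12,21,5,16,18,17,2,4,8,7,19,6,14,22,9,15,11,3,23]

/-- Pair sets for the free representative. -/
def masksFree : List ℕ := [5, 17, 65, 129, 257]

/-- Pair sets for the octad representative. -/
def masksOctad : List ℕ := [5, 17, 65, 257]

/-- The commutator images of the nonzero combinations lie outside the code. -/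
def maskCheck (s L : List ℕ) : Bool :=
  (List.range (2 ^ L.length)).all fun j =>
    j == 0 || !(inCode (comb L j ^^^ maskImageF (pk s) (comb L j))) &&
      decide (comb L j ^^^ maskImageF (pk s) (comb L j) < 2 ^ 24)

theorem data_ok :
    tabInM24 tauFree = true ∧ fcomp tauFree invFree = fcomp invFree tauFree ∧
      cntFix (pk tauFree) 3 = 24 ∧ tauFree ≠ idTab ∧
    tabInM24 sevA = true ∧ fcomp sevA invOctad = fcomp invOctad sevA ∧
      cntFix (pk sevA) 7 = 24 ∧
    tabInM24 sevB = true ∧ fcomp sevB invOctad = fcomp invOctad sevB ∧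
      cntFix (pk sevB) 7 = 24 ∧
    cntFix (pk (fcomp sevA sevB)) 3 = 24 ∧ fcomp sevA sevB ≠ idTab ∧
    maskCheck invFree masksFree = true ∧ maskCheck invOctad masksOctad = true := by
  decide +kernel

theorem parity_ok : (∀ j < 32, (ofMask (comb masksFree j)).card % 2 = 0) ∧
    ∀ j < 16, (ofMask (comb masksOctad j)).card % 2 = 0 := by
  decide +kernel

theorem basis_octads : ∀ b ∈ basisMasks, ofMask b ∈ octads := by
  intro b hb
  refine ⟨mem_supports_iff_wordOf.2 (basis_mem b hb), ?_⟩
  revert b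
  decide +kernel

theorem exists_tab {t : List ℕ} {n : ℕ} (hin : tabInM24 t = true) (hn : cntFix (pk t) n = 24) :
    ∃ g ∈ M24, toTab g = t ∧ g ^ n = 1 := by
  obtain ⟨g, hg, rfl⟩ := rep_of_tabInM24 hin
  exact ⟨g, hg, rfl, eq_one_of_cntFix hg (by omega)⟩

theorem commute_of_tab {g h : Equiv.Perm GolayPt}
    (e : fcomp (toTab g) (toTab h) = fcomp (toTab h) (toTab g)) : Commute g h := by
  rw [fcomp_toTab, fcomp_toTab] at e
  exact toTab_injective e

/-- The data for a representative, in terms of permutations. -/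
theorem free_data {σ : Equiv.Perm GolayPt} (hσ : toTab σ = invFree) :
    ∃ τ ∈ M24, Commute τ σ ∧ orderOf τ = 3 := by
  obtain ⟨h1, h2, h3, h4, -⟩ := data_ok
  obtain ⟨τ, hτ, e, h⟩ := exists_tab h1 h3
  haveI : Fact (Nat.Prime 3) := ⟨Nat.prime_three⟩
  refine ⟨τ, hτ, commute_of_tab (by rw [e, hσ, h2]), orderOf_eq_prime h fun e1 => h4 ?_⟩
  rw [← e, e1, toTab_one]

theorem octad_data {σ : Equiv.Perm GolayPt} (hσ : toTab σ = invOctad) :
    ∃ a ∈ M24, ∃ b ∈ M24, Commute a σ ∧ Commute b σ ∧ a ^ 7 = 1 ∧ b ^ 7 = 1 ∧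
      orderOf (a * b) = 3 := by
  obtain ⟨-, -, -, -, a1, a2, a3, b1, b2, b3, c1, c2, -⟩ := data_ok
  obtain ⟨a, ha, ea, pa⟩ := exists_tab a1 a3
  obtain ⟨b, hb, eb, pb⟩ := exists_tab b1 b3
  haveI : Fact (Nat.Prime 3) := ⟨Nat.prime_three⟩
  refine ⟨a, ha, b, hb, commute_of_tab (by rw [ea, hσ, a2]), commute_of_tab (by rw [eb, hσ, b2]),
    pa, pb, orderOf_eq_prime (eq_one_of_cntFix (M24.mul_mem ha hb) ?_) fun e1 => c2 ?_⟩
  · rw [← fcomp_toTab, ea, eb, c1]; norm_num
  · rw [← ea, ← eb, fcomp_toTab, e1, toTab_one]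

/-- Even sets indexed by `2 ^ r` indices, additive, whose images move outside the code. -/
theorem mask_data {σ : Equiv.Perm GolayPt} {L : List ℕ} (hc : maskCheck (toTab σ) L = true)
    {j : ℕ} (hj : j < 2 ^ L.length) (hne : j ≠ 0) :
    wordOf (ofMask (comb L j) ∆ (σ • ofMask (comb L j))) ∉ golayCode := by
  have h := List.all_eq_true.1 hc j (List.mem_range.2 hj)
  rw [Bool.or_eq_true, beq_iff_eq, or_iff_right hne, Bool.and_eq_true, Bool.not_eq_true',
    decide_eq_true_eq] at h
  rw [smul_ofMask_tab, ← maskImageF_eq, ← ofMask_xor, mem_golayCode_iff, support₂_wordOf,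
    toMask_ofMask h.2]
  simp [h.1]

end CfsgLib.J4Type13
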