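import Cfsg.Agent.LargeFischer45.Model
import Cfsg.Agent.M24Module.Cocode
import Cfsg.Agent.J4Type13.Data

/-!
A triangular configuration as the even cocode of the Golay code, with its group of automorphisms.
-/

set_option autoImplicit false

open scoped Pointwise symmDiff

namespace CfsgLib.J4Type13

open Finset Cfsg CfsgLib.Triangular45

variable {A : Type*} [CommGroup A] [DecidableEq A] {D : Finset A}

/-- The coordinates of a triangular configuration. -/
structure Coords (D : Finset A) (t : A) where
  F : Finset GolayPt → A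
  F_mul : ∀ S T, F (S ∆ T) = F S * F T
  F_pair : ∀ p q, p ≠ q → F {p, q} ∈ D
  surj : ∀ a ∈ D, ∃ p q, p ≠ q ∧ F {p, q} = a
  F_base : F {none, some 0} = t
  short : ∀ S, Even S.card → S.card ≤ 6 → F S = 1 → S = ∅
  code : ∀ S, Even S.card → F S = 1 → Golay.wordOf S ∈ golayCode
  aut : ∀ g : MulAut A, (∀ a, g a ∈ D ↔ a ∈ D) →
    ∃ σ ∈ Cfsg.M24, ∀ S : Finset GolayPt, Even S.card → g (F S) = F (σ • S)

theorem even_symmDiff {S T : Finset GolayPt} (hS : Even S.card) (hT : Even T.card) :
    Even (S ∆ T).card := by
  have := Golay.card_symmDiff_add S T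
  obtain ⟨a, ha⟩ := hS
  obtain ⟨b, hb⟩ := hT
  exact ⟨a + b - (S ∩ T).card, by omega⟩

theorem nonempty_coords (h : Hyp D) {t : A} (ht : t ∈ D) : Nonempty (Coords D t) := by
  classical
  obtain ⟨a, b, hab, hends⟩ := card_eq_two.1 (card_ends h ht)
  obtain ⟨e₀, he₀⟩ := DesignUnique.exists_equiv24 (card_pts h) (steiner h a)
  obtain ⟨τ, hτ, hτv⟩ := M24Module.exists_perm (k := 2) (by norm_num) ![e₀ a, e₀ b] ![none, some 0]
    (by
      intro i j hij
      fin_cases i <;> fin_cases j <;> simp_all [e₀.injective.eq_iff])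
    (by
      intro i j hij
      fin_cases i <;> fin_cases j <;> simp_all)
  set e : Pts D ≃ GolayPt := e₀.trans τ with he
  have hea : e a = none := hτv 0
  have heb : e b = some 0 := hτv 1
  have himg : (fun s => s.image e) '' blocks D a = octads := by
    ext o'
    constructor
    · rintro ⟨s, hs, rfl⟩
      have h1 : s.image e₀ ∈ octads := he₀ ▸ ⟨s, hs, rfl⟩
      have h2 := Golay.smul_mem_octads hτ h1
      rwa [smul_finset_def, image_image] at h2
    · intro ho
      have h2 := Golay.smul_mem_octads (inv_mem hτ) ho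
      rw [← he₀] at h2
      obtain ⟨s, hs, e'⟩ := h2
      refine ⟨s, hs, ?_⟩
      have : τ • s.image e₀ = o' := by simp only at e'; rw [e', smul_inv_smul]
      rwa [smul_finset_def, image_image] at this
  let F : Finset GolayPt → A := fun S => val D a (S.image e.symm)
  have hcard : ∀ S : Finset GolayPt, (S.image e.symm).card = S.card := fun S =>
    card_image_of_injective _ e.symm.injective
  have hFmul : ∀ S T, F (S ∆ T) = F S * F T := fun S T => by
    simp only [F]
    rw [image_symmDiff S T e.symm.injective, val_symmDiff h]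
  have hFsymm : ∀ s : Finset (Pts D), F (s.image e) = val D a s := fun s => by
    simp only [F, image_image, Equiv.symm_comp_self, image_id]
  have hshort : ∀ S : Finset GolayPt, Even S.card → S.card ≤ 6 → F S = 1 → S = ∅ := by
    intro S hS h6 hF
    exact image_eq_empty.1 (eq_empty_of_val h a (by rwa [hcard]) (by rwa [hcard]) hF)
  have hbasis : ∀ (l : List ℕ), (∀ x ∈ l, Golay.ofMask x ∈ octads) → ∀ i : ℕ,
      Even (Golay.ofMask (Golay.comb l i)).card ∧ F (Golay.ofMask (Golay.comb l i)) = 1 := by
    intro l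
    induction l with
    | nil =>
      intro _ i
      simp [Golay.comb, Golay.ofMask_zero, F, Triangular45.val]
    | cons x l ih =>
      intro hl i
      obtain ⟨h1, h2⟩ := ih (fun y hy => hl y (List.mem_cons_of_mem _ hy)) (i / 2)
      rw [Golay.comb, Golay.ofMask_xor]
      split
      · obtain ⟨s, hs, hse⟩ := himg.ge (hl x List.mem_cons_self)
        refine ⟨even_symmDiff ?_ h1, ?_⟩
        · rw [(hl x List.mem_cons_self).2]; decide
        · rw [hFmul, h2, mul_one, ← hse, hFsymm]
          exact hs.2
      · rw [Golay.ofMask_zero, ← bot_eq_empty, bot_symmDiff]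
        exact ⟨h1, h2⟩
  have hcode : ∀ S : Finset GolayPt, Golay.wordOf S ∈ golayCode → Even S.card ∧ F S = 1 := by
    intro S hS
    rw [Golay.mem_golayCode_iff, Golay.support₂_wordOf, Golay.inCode_iff] at hS
    obtain ⟨i, -, hi⟩ := hS
    rw [← Golay.ofMask_toMask S, ← hi]
    exact hbasis _ basis_octads i
  refine ⟨⟨F, hFmul, fun p q hne => ?_, fun u hu => ?_, ?_, hshort, fun S hS hF => ?_,
    fun g hg => ?_⟩⟩
  · simp only [F, image_insert, image_singleton]
    rw [val_pair h a fun e' => hne (e.symm.injective e')]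
    exact duad_mem h fun e' => hne (e.symm.injective e')
  · obtain ⟨p, q, hne, hpq⟩ := card_eq_two.1 (card_ends h hu)
    refine ⟨e p, e q, fun e' => hne (e.injective e'), ?_⟩
    have := hFsymm {p, q}
    rw [image_insert, image_singleton, ← hpq, val_ends h a hu] at this
    exact this
  · have := hFsymm {a, b}
    rw [image_insert, image_singleton, hea, heb, ← hends, val_ends h a ht] at this
    exact this
  · obtain ⟨v, hv, hv4⟩ := M24Module.exists_short_rep (Golay.wordOf S)
    set T := support₂ v
    have hvT : Golay.wordOf T = v := Golay.wordOf_support₂ v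
    have hc := hcode (T ∆ S) (by
      rwa [← Golay.support₂_wordOf S, ← Golay.support₂_add, Golay.wordOf_support₂])
    have hT : Even T.card := by
      have := even_symmDiff hc.1 hS
      rwa [symmDiff_assoc, symmDiff_self, symmDiff_bot] at this
    have hT1 : F T = 1 := by
      have := hc.2
      rwa [hFmul, hF, mul_one] at this
    rw [← hvT, hshort T hT (by omega) hT1, ← Golay.support₂_zero,
      Golay.wordOf_support₂, zero_add] at hv
    exact hv
  · obtain ⟨π, hπ, hπd⟩ := aut_points h a g hg
    refine ⟨e.permCongrHom π, ?_, fun S hS => ?_⟩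
    · rw [← DesignUnique.aut_octads, ← DesignUnique.map_aut e himg]
      exact ⟨π, hπ, rfl⟩
    · have himgS : (e.permCongrHom π • S).image e.symm = (S.image e.symm).image π := by
        rw [smul_finset_def, image_image, image_image]
        refine image_congr fun p _ => ?_
        simp [Equiv.permCongrHom]
      have hp : ∀ p, duad D a (π p) = duad D a (π a) * g (duad D a p) := by
        intro p
        rw [hπd, duad_split h a (π a) (π p), mul_cancel h]
      obtain ⟨k, hk⟩ := hS
      simp only [F]
      rw [himgS, Triangular45.val, Triangular45.val, prod_image π.injective.injOn, prod_congr rfl (fun p _ => hp p),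
        prod_mul_distrib, prod_const, hcard, hk, ← two_mul, pow_mul, sq, h.sq, one_pow, one_mul,
        map_prod]

namespace Coords

variable {t : A} (c : Coords D t)

theorem F_empty (h : Hyp D) : c.F ∅ = 1 := by
  have := c.F_mul ∅ ∅
  rwa [symmDiff_self, h.sq] at this

theorem eq_of_eq {S T : Finset GolayPt} (hS : S.card = 2) (hT : T.card = 2)
    (h : Hyp D) (e : c.F S = c.F T) : S = T := by
  refine symmDiff_eq_bot.1 (c.short _ (even_symmDiff (hS ▸ even_two) (hT ▸ even_two)) ?_ ?_)
  · have := Golay.card_symmDiff_add S T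
    omega
  · rw [c.F_mul, e, h.sq]

theorem perm_ext (h : Hyp D) {σ τ : Equiv.Perm GolayPt}
    (e : ∀ p q, p ≠ q → c.F (σ • ({p, q} : Finset GolayPt)) = c.F (τ • ({p, q} : Finset GolayPt))) :
    σ = τ := by
  refine Equiv.ext fun p => ?_
  by_contra hne
  obtain ⟨q, hq⟩ : ∃ q, q ∉ ({p, σ.symm (τ p)} : Finset GolayPt) := by
    by_contra hno
    push Not at hno
    have hc := card_le_two (a := p) (b := σ.symm (τ p))
    rw [eq_univ_of_forall hno, card_univ] at hc
    exact absurd hc (by decide)
  simp only [mem_insert, mem_singleton, not_or] at hq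
  have hpq := Ne.symm hq.1
  have h1 := c.eq_of_eq (by rw [card_smul_finset, card_pair hpq])
    (by rw [card_smul_finset, card_pair hpq]) h (e p q hpq)
  have h2 : τ p ∈ σ • ({p, q} : Finset GolayPt) := by
    rw [h1]
    exact smul_mem_smul_finset (mem_insert_self p _)
  simp only [smul_finset_insert, smul_finset_singleton, Equiv.Perm.smul_def, mem_insert,
    mem_singleton] at h2
  rcases h2 with e' | e'
  · exact hne e'.symm
  · exact hq.2 (by rw [e', Equiv.symm_apply_apply])

theorem eq_one_of_fix (h : Hyp D) {g : MulAut A} (hg : ∀ a ∈ D, g a = a) : g = 1 := by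
  refine MulEquiv.ext fun a => ?_
  rw [MulAut.one_apply]
  by_cases ha : a ∈ D
  · exact hg a ha
  by_cases ha1 : a = 1
  · rw [ha1, map_one]
  obtain ⟨u, hu⟩ : (D.filter fun u => a * u ∈ D).Nonempty := by
    rw [← card_pos, h.dec a ha1 ha]; norm_num
  obtain ⟨hu1, hu2⟩ := mem_filter.1 hu
  rw [← mul_cancel' h u a, map_mul, hg _ hu2, hg _ hu1]

/-- A group keeping the configuration acts through `M24`, equivariantly. -/
theorem exists_hom (h : Hyp D) {M : Type*} [Group M] (ρ : M →* MulAut A)
    (hρ : ∀ m a, a ∈ D → ρ m a ∈ D) :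
    ∃ Φ : M →* ↥Cfsg.M24, Φ.ker = ρ.ker ∧ ∀ m (S : Finset GolayPt), Even S.card →
      ρ m (c.F S) = c.F ((Φ m : Equiv.Perm GolayPt) • S) := by
  classical
  have hiff : ∀ m a, ρ m a ∈ D ↔ a ∈ D := fun m a => ⟨fun hm => by
    have := hρ m⁻¹ _ hm
    rwa [← MulAut.mul_apply, ← map_mul, inv_mul_cancel, map_one, MulAut.one_apply] at this, hρ m a⟩
  choose σ hσ hσd using fun m => c.aut (ρ m) (hiff m)
  have even_pair : ∀ p q : GolayPt, p ≠ q → Even ({p, q} : Finset GolayPt).card := fun p q hpq => by
    rw [card_pair hpq]; exact even_two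
  let Φ : M →* ↥Cfsg.M24 := MonoidHom.mk' (fun m => ⟨σ m, hσ m⟩) fun m n => by
    refine Subtype.ext (c.perm_ext h fun p q hpq => ?_)
    rw [← hσd _ _ (even_pair p q hpq), map_mul, MulAut.mul_apply, hσd n _ (even_pair p q hpq),
      hσd m _ (by rw [card_smul_finset]; exact even_pair p q hpq), ← mul_smul]
    rfl
  refine ⟨Φ, ?_, hσd⟩
  ext m
  rw [MonoidHom.mem_ker, MonoidHom.mem_ker]
  constructor
  · intro e
    refine eq_one_of_fix h fun u hu => ?_
    obtain ⟨p, q, hpq, rfl⟩ := c.surj u hu
    rw [hσd m _ (even_pair p q hpq), show σ m = 1 from congrArg Subtype.val e, one_smul]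
  · intro e
    refine Subtype.ext (c.perm_ext h fun p q hpq => ?_)
    show c.F (σ m • _) = _
    rw [← hσd m _ (even_pair p q hpq), e, MulAut.one_apply]
    exact congrArg c.F (one_smul (Equiv.Perm GolayPt) _).symm

end Coords

end CfsgLib.J4Type13
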