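import Cfsg.Agent.J4Type13.Cocode
import Cfsg.Agent.LargeFischer45.Mathieu

/-!
An elementary abelian subgroup of order `2 ^ 11` with normaliser acting as `M24` on the even
cocode.
-/

set_option autoImplicit false

open scoped Pointwise symmDiff

namespace CfsgLib.J4Type13

open Finset Cfsg

variable {G : Type*} [Group G]

/-- The cocode model of the normaliser of `V`. -/
structure Model (V : Subgroup G) (t : G) where
  card : Nat.card V = 2 ^ 11
  sq : ∀ a ∈ V, a * a = 1
  Φ : ↥(Subgroup.normalizer (V : Set G)) →* ↥Cfsg.M24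
  surj : Function.Surjective Φ
  ker : Φ.ker = V.subgroupOf (Subgroup.normalizer (V : Set G))
  F : Finset GolayPt → G
  F_mem : ∀ S, F S ∈ V
  F_mul : ∀ S T, F (S ∆ T) = F S * F T
  F_base : F {none, some 0} = t
  short : ∀ S, Even S.card → S.card ≤ 6 → F S = 1 → S = ∅
  code : ∀ S, Even S.card → F S = 1 → Golay.wordOf S ∈ golayCode
  equiv : ∀ (m : ↥(Subgroup.normalizer (V : Set G))) (S : Finset GolayPt), Even S.card →
    (m : G) * F S * (m : G)⁻¹ = F ((Φ m : Equiv.Perm GolayPt) • S)

namespace Model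

variable {V : Subgroup G} {t : G} (M : Model V t)

include M in
theorem comm {a b : G} (ha : a ∈ V) (hb : b ∈ V) : a * b = b * a :=
  calc a * b = (a * b)⁻¹ := (inv_eq_of_mul_eq_one_right (M.sq _ (mul_mem ha hb))).symm
    _ = b * a := by
      rw [mul_inv_rev, inv_eq_of_mul_eq_one_right (M.sq a ha),
        inv_eq_of_mul_eq_one_right (M.sq b hb)]

theorem mem_ker (m : ↥(Subgroup.normalizer (V : Set G))) : M.Φ m = 1 ↔ (m : G) ∈ V := by
  rw [← MonoidHom.mem_ker, M.ker, Subgroup.mem_subgroupOf]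

theorem fix_iff (m : ↥(Subgroup.normalizer (V : Set G))) :
    (m : G) * t * (m : G)⁻¹ = t ↔ (M.Φ m : Equiv.Perm GolayPt) ∈
      MulAction.stabilizer (Equiv.Perm GolayPt) ({none, some 0} : Set GolayPt) := by
  have h2 : ({none, some 0} : Finset GolayPt).card = 2 := rfl
  set σ := (M.Φ m : Equiv.Perm GolayPt)
  have e := M.equiv m {none, some 0} ⟨1, h2⟩
  rw [M.F_base] at e
  have hset : σ • ({none, some 0} : Finset GolayPt) = {none, some 0} ↔
      σ ∈ MulAction.stabilizer (Equiv.Perm GolayPt) ({none, some 0} : Set GolayPt) := by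
    rw [MulAction.mem_stabilizer_iff, ← coe_inj, coe_smul_finset]
    simp
  rw [e, ← hset]
  refine ⟨fun h => ?_, fun h => by rw [h, M.F_base]⟩
  refine symmDiff_eq_bot.1 (M.short _ (even_symmDiff ?_ ⟨1, h2⟩) ?_ ?_)
  · rw [card_smul_finset, h2]; decide
  · have := Golay.card_symmDiff_add (σ • ({none, some 0} : Finset GolayPt)) {none, some 0}
    rw [card_smul_finset, h2] at this
    omega
  · rw [M.F_mul, h, M.F_base]
    exact M.sq t (M.F_base ▸ M.F_mem _)

end Model

open LargeFischer45 in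
/-- The model from the local facts. -/
theorem nonempty_model [Finite G] {z : G} {Q V : Subgroup G} (L : Local z Q V)
    (hC : Subgroup.centralizer (V : Set G) ≤ V)
    (hN : Nat.card ↥(Subgroup.normalizer (V : Set G)) = 2 ^ 11 * 244823040)
    {t : G} (ht : t ∈ V) (ht1 : t ≠ 1) (htz : ¬ IsConj z t) : Nonempty (Model V t) := by
  classical
  letI : CommGroup ↥V :=
    { (inferInstance : Group ↥V) with mul_comm := fun a b => Subtype.ext (L.comm a.2 b.2) }
  obtain ⟨-, hD, hall⟩ := L.card_sets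
  obtain ⟨hd, he, -⟩ := L.ways_eq
  let D : Finset ↥V := (dSet z Q V).subtype (· ∈ V)
  have hmem : ∀ a : ↥V, a ∈ D ↔ (a : G) ∈ dSet z Q V := fun a => by simp [D]
  have hcard : ∀ (p : ↥V → Prop) [DecidablePred p] (p' : G → Prop),
      (∀ a : ↥V, p a ↔ p' a) → (D.filter p).card = {u | u ∈ dSet z Q V ∧ p' u}.ncard := by
    intro p _ p' hp
    rw [← Finset.card_map (Function.Embedding.subtype (· ∈ V)), ← Set.ncard_coe_finset]
    congr 1
    ext u
    simp only [Finset.coe_map, Function.Embedding.coe_subtype, Set.mem_image, Finset.coe_filter,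
      Set.mem_setOf_eq]
    constructor
    · rintro ⟨a, ⟨ha, hpa⟩, rfl⟩
      exact ⟨(hmem a).1 ha, (hp a).1 hpa⟩
    · rintro ⟨hu, hpu⟩
      exact ⟨⟨u, (mem_sel.1 hu).1⟩, ⟨(hmem _).2 hu, (hp _).2 hpu⟩, rfl⟩
  have hyp : Triangular45.Hyp D := by
    refine ⟨fun a => Subtype.ext (L.sq a.2), fun h1 => ?_, ?_, fun a ha => ?_,
      fun v hv1 hvD => ?_, fun w hw w' hw' hne hn x hx hxw hxw' => ?_,
      fun w hw w' hw' hne hn => ?_⟩
    · exact ((mem_sel.1 ((hmem 1).1 h1)).2.1).1 rfl
    · rw [← Finset.card_map (Function.Embedding.subtype (· ∈ V)), ← hD]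
      congr 1
      exact Finset.subtype_map_of_mem fun x hx => (mem_sel.1 hx).1
    · rw [hcard _ (fun u => (a : G) * u ∈ dSet z Q V) fun u => hmem (a * u)]
      exact hd _ ((hmem a).1 ha)
    · rw [hcard _ (fun u => (v : G) * u ∈ dSet z Q V) fun u => hmem (v * u)]
      exact he _ (L.not_zSet_dSet v.2 (fun e => hv1 (Subtype.ext e)) fun h => hvD ((hmem v).2 h))
    · exact (hmem _).2 ((L.common ((hmem w).1 hw) ((hmem w').1 hw')
        (fun e => hne (Subtype.ext e)) (fun h => hn ((hmem (w * w')).2 h))).1 _ ((hmem x).1 hx)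
        ((hmem (x * w)).1 hxw) ((hmem (x * w')).1 hxw'))
    · rw [hcard _ (fun u => u * (w : G) ∈ dSet z Q V ∧ u * (w' : G) ∈ dSet z Q V)
        fun u => and_congr (hmem (u * w)) (hmem (u * w'))]
      exact (L.common ((hmem w).1 hw) ((hmem w').1 hw') (fun e => hne (Subtype.ext e))
        (fun h => hn ((hmem (w * w')).2 h))).2
  let ρ : ↥(Subgroup.normalizer (V : Set G)) →* MulAut ↥V := V.normalizerMonoidHom
  have hρ : ∀ m (a : ↥V), ((ρ m a : ↥V) : G) = (m : G) * (a : G) * (m : G)⁻¹ := fun m a => rfl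
  obtain ⟨c⟩ := nonempty_coords hyp (t := ⟨t, ht⟩) ((hmem _).2 (hall t ht ht1 htz))
  obtain ⟨Φ, hker, heq⟩ := c.exists_hom hyp ρ
    (fun m a ha => (hmem _).2 (by rw [hρ]; exact dSet_conj m.2 ((hmem a).1 ha)))
  have hker' : Φ.ker = V.subgroupOf (Subgroup.normalizer (V : Set G)) := by
    rw [hker, Subgroup.normalizerMonoidHom_ker V, le_antisymm hC fun a ha =>
      Subgroup.mem_centralizer_iff.2 fun b hb => L.comm hb ha]
  have hsurj : Function.Surjective Φ := by
    refine MonoidHom.range_eq_top.1 (Subgroup.eq_top_of_card_eq _ ?_)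
    have h := Φ.ker.card_mul_index
    rw [Subgroup.index_ker, hker', Nat.card_congr (Subgroup.subgroupOfEquivOfLe
      (Subgroup.le_normalizer (H := V))).toEquiv, L.top.card, hN] at h
    rw [show Nat.card ↥Cfsg.M24 = 244823040 from Cfsg.Agent.S0364.result]
    exact Nat.eq_of_mul_eq_mul_left (by norm_num) h
  exact ⟨{
    card := L.top.card
    sq := fun a ha => L.sq ha
    Φ := Φ
    surj := hsurj
    ker := hker'
    F := fun S => (c.F S : G)
    F_mem := fun S => (c.F S).2
    F_mul := fun S T => congrArg Subtype.val (c.F_mul S T)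
    F_base := congrArg Subtype.val c.F_base
    short := fun S h1 h2 h3 => c.short S h1 h2 (Subtype.ext h3)
    code := fun S h1 h3 => c.code S h1 (Subtype.ext h3)
    equiv := fun m S hS => by rw [← hρ, heq m S hS] }⟩

end CfsgLib.J4Type13
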