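import Cfsg.Agent.J4Type13.Model
import Cfsg.Agent.J4Type67.Module

/-!
An involution of the normaliser outside `V` commutes with an element of order three.
-/

set_option autoImplicit false

open scoped Pointwise symmDiff

namespace CfsgLib.J4Type13

open Finset Cfsg

/-! ### Two counting lemmas -/

theorem eq_of_small {Γ β : Type*} [Group Γ] [MulAction Γ β] (S : Finset β)
    (hstab : ∀ g : Γ, ∀ c ∈ S, g • c ∈ S) (hcard : S.card ≤ 2) {w : Γ}
    (h3 : ∀ c ∈ S, (w ^ 3) • c = c) {c : β} (hc : c ∈ S) : w • c = c := by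
  classical
  by_contra hne
  have h : w • w • w • c = c := by
    rw [← mul_smul, ← mul_smul, ← pow_three', h3 c hc]
  have h2 : w • w • c ≠ c := fun e => hne (by rwa [e] at h)
  have h12 : w • w • c ≠ w • c := fun e => hne (MulAction.injective w e)
  have hle : ({c, w • c, w • w • c} : Finset β).card ≤ S.card := card_le_card (by
    intro y hy
    simp only [mem_insert, mem_singleton] at hy
    rcases hy with rfl | rfl | rfl
    exacts [hc, hstab _ _ hc, hstab _ _ (hstab _ _ hc)])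
  rw [card_insert_of_notMem (by simp [Ne.symm hne, Ne.symm h2]),
    card_pair (Ne.symm h12)] at hle
  omega

theorem exists_conj_fix_of_moved {Γ β : Type*} [Group Γ] [MulAction Γ β] (S : Finset β)
    (hstab : ∀ g : Γ, ∀ c ∈ S, g • c ∈ S) (hcard : S.card ≤ 8) {x w : Γ}
    (hx : ∀ c ∈ S, (x ^ 7) • c = c) (h3 : ∀ c ∈ S, (w ^ 3) • c = c) {c : β} (hc : c ∈ S)
    (hne : x • c ≠ c) : ∃ g : Γ, (g * w * g⁻¹) • c = c := by
  classical
  have hinj : ∀ i < 7, ∀ j < 7, (x ^ i) • c = (x ^ j) • c → i = j := by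
    intro i hi j hj e
    wlog hij : i < j generalizing i j
    · rcases Nat.lt_or_ge j i with h | h
      · exact (this j hj i hi e.symm h).symm
      · omega
    exfalso
    have hd : (x ^ (j - i)) • c = c := by
      rw [show j = i + (j - i) by omega, pow_add, mul_smul] at e
      exact (MulAction.injective (x ^ i) e).symm
    have hp := MulAction.pow_smul_eq_iff_period_dvd.1 (hx c hc)
    have hq := MulAction.pow_smul_eq_iff_period_dvd.1 hd
    rcases (Nat.dvd_prime (by norm_num : Nat.Prime 7)).1 hp with e1 | e1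
    · exact hne (by
        rw [← pow_one x, MulAction.pow_smul_eq_iff_period_dvd, e1])
    · rw [e1] at hq
      have := Nat.le_of_dvd (by omega) hq
      omega
  set O := (Finset.range 7).image fun i => (x ^ i) • c
  have hO : O.card = 7 := by
    rw [card_image_of_injOn fun i hi j hj e =>
      hinj i (mem_range.1 hi) j (mem_range.1 hj) e, card_range]
  have hOS : O ⊆ S := image_subset_iff.2 fun i _ => hstab _ _ hc
  by_contra hno
  push Not at hno
  have hmove : ∀ y ∈ O, w • y ≠ y := by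
    intro y hy e
    obtain ⟨i, -, rfl⟩ := mem_image.1 hy
    refine hno (x ^ i)⁻¹ ?_
    rw [inv_inv, mul_smul, mul_smul, e, inv_smul_smul]
  let f : ↥S → ↥S := fun y => ⟨w • y.1, hstab _ _ y.2⟩
  have hf : ∀ y, f^[3 ^ 1] y = y := fun y => Subtype.ext (by
    show w • w • w • y.1 = y.1
    rw [← mul_smul, ← mul_smul, ← pow_three', h3 _ y.2])
  have hmod := J4Type67.card_modEq f Nat.prime_three hf
  have hfix : Nat.card {y : ↥S // f y = y} ≤ (S \ O).card := by
    rw [← Nat.card_eq_finsetCard]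
    refine Nat.card_le_card_of_injective (fun y => ⟨y.1.1, mem_sdiff.2 ⟨y.1.2, fun hy =>
      hmove _ hy (congrArg Subtype.val y.2)⟩⟩) fun y z e => ?_
    exact Subtype.ext (Subtype.ext (Subtype.mk.inj e))
  rw [card_sdiff_of_subset hOS, hO] at hfix
  rw [Nat.card_eq_finsetCard] at hmod
  have h7 : 7 ≤ S.card := hO ▸ card_le_card hOS
  unfold Nat.ModEq at hmod
  omega

variable {G : Type*} [Group G] [Finite G] {V : Subgroup G} {t : G}

/-- The orbit of an element under conjugation by `V`. -/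
noncomputable def cls (V : Subgroup G) (x : G) : Finset G :=
  (Set.toFinite (Set.range fun v : ↥V => (v : G) * x * (v : G)⁻¹)).toFinset

theorem mem_cls {x y : G} : y ∈ cls V x ↔ ∃ v ∈ V, v * x * v⁻¹ = y := by
  simp [cls]

theorem cls_eq {x y : G} (h : y ∈ cls V x) : cls V y = cls V x := by
  obtain ⟨v, hv, rfl⟩ := mem_cls.1 h
  ext u
  simp only [mem_cls]
  constructor
  · rintro ⟨a, ha, rfl⟩
    exact ⟨a * v, mul_mem ha hv, by group⟩
  · rintro ⟨a, ha, rfl⟩
    exact ⟨a * v⁻¹, mul_mem ha (inv_mem hv), by group⟩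

namespace Model

variable (M : Model V t)

/-- Enough pair sets moved outside the code give a large commutator space. -/
theorem le_card_cls {s : G} (hs : s ∈ Subgroup.normalizer (V : Set G)) {L : List ℕ} {r : ℕ}
    (hr : 2 ^ L.length = r) (hpar : ∀ j < r, (Golay.ofMask (Golay.comb L j)).card % 2 = 0)
    (hc : maskCheck (Mathieu.toTab (M.Φ ⟨s, hs⟩ : Equiv.Perm GolayPt)) L = true) :
    r ≤ (cls V s).card := by
  classical
  set σ := (M.Φ ⟨s, hs⟩ : Equiv.Perm GolayPt)
  set m := fun j => Golay.ofMask (Golay.comb L j)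
  have hin : ∀ j ∈ Finset.range r, M.F (m j) * s * (M.F (m j))⁻¹ ∈ cls V s := fun j _ =>
    mem_cls.2 ⟨_, M.F_mem _, rfl⟩
  rw [← Finset.card_range r]
  refine Finset.card_le_card_of_injOn _ hin fun i hi j hj e => ?_
  have hi' : i < r := mem_range.1 hi
  have hj' : j < r := mem_range.1 hj
  subst hr
  by_contra hne
  have hx : i ^^^ j < 2 ^ L.length := Nat.xor_lt_two_pow hi' hj'
  refine mask_data hc hx (fun h => hne (Nat.xor_eq_zero_iff.1 h)) (M.code _ ?_ ?_)
  · exact even_symmDiff (Nat.even_iff.2 (hpar _ hx))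
      (by rw [card_smul_finset]; exact Nat.even_iff.2 (hpar _ hx))
  · have heq : ∀ k < 2 ^ L.length,
        s * M.F (m k) * s⁻¹ = M.F (σ • m k) := fun k hk =>
      M.equiv ⟨s, hs⟩ _ (Nat.even_iff.2 (hpar k hk))
    have hm : m (i ^^^ j) = m i ∆ m j := by simp only [m, Golay.comb_xor, Golay.ofMask_xor]
    have hφ : ∀ k < 2 ^ L.length, M.F (m k ∆ (σ • m k)) * s = M.F (m k) * s * (M.F (m k))⁻¹ := by
      intro k hk
      have hinv : (M.F (m k))⁻¹ = M.F (m k) := inv_eq_of_mul_eq_one_right (M.sq _ (M.F_mem _))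
      rw [M.F_mul, ← heq k hk, hinv]
      group
    have e' : M.F (m i ∆ (σ • m i)) = M.F (m j ∆ (σ • m j)) := by
      refine mul_right_cancel (b := s) ?_
      rw [hφ i hi', hφ j hj']
      exact e
    show M.F (m (i ^^^ j) ∆ (σ • m (i ^^^ j))) = 1
    rw [hm, smul_finset_symmDiff, symmDiff_symmDiff_symmDiff_comm, M.F_mul, e',
      M.sq _ (M.F_mem _)]

include M in
/-- The involutions of the coset, and their classes. -/
theorem classes [DecidableEq G] (s : G) (hss : s * s = 1) (hs : s ∈ Subgroup.normalizer (V : Set G)) :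
    ∃ S : Finset (Finset G), cls V s ∈ S ∧ S.card * (cls V s).card * (cls V s).card = 2 ^ 11 ∧
      (∀ n ∈ Subgroup.normalizer (V : Set G), n * s * n⁻¹ * s ∈ V →
        ∀ c ∈ S, c.image (fun y => n * y * n⁻¹) ∈ S) ∧
      (∀ n ∈ V, ∀ c ∈ S, c.image (fun y => n * y * n⁻¹) = c) ∧
      (∃ j, (cls V s).card = 2 ^ j) := by
  classical
  haveI := Fintype.ofFinite G
  have hVn : ∀ n ∈ Subgroup.normalizer (V : Set G), ∀ v ∈ V, n * v * n⁻¹ ∈ V :=
    fun n hn v hv => (Subgroup.mem_normalizer_iff.1 hn v).1 hv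
  have hsinv : s⁻¹ = s := inv_eq_of_mul_eq_one_right hss
  have hsv : ∀ v ∈ V, s * v * s ∈ V := fun v hv => by
    simpa [hsinv] using hVn s hs v hv
  let φ : ↥V →* ↥V := MonoidHom.mk'
    (fun v => ⟨(v : G) * (s * (v : G) * s), mul_mem v.2 (hsv _ v.2)⟩) fun a b => Subtype.ext (by
      simp only [Subgroup.coe_mul]
      have e := M.comm b.2 (hsv _ a.2)
      calc (a : G) * b * (s * (a * b) * s) = a * (b * (s * a * s)) * (s * b * s) := by
            simp only [mul_assoc]
            rw [← mul_assoc s s, hss, one_mul]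
        _ = a * ((s * a * s) * b) * (s * b * s) := by rw [e]
        _ = a * (s * a * s) * (b * (s * b * s)) := by simp only [mul_assoc])
  set X := univ.filter fun x : G => x * x = 1 ∧ x * s ∈ V
  have hX : X.card = Nat.card φ.ker := by
    rw [← Nat.card_eq_finsetCard]
    refine Nat.card_congr
      { toFun := fun x => ⟨⟨(x : G) * s, (mem_filter.1 x.2).2.2⟩, Subtype.ext ?_⟩
        invFun := fun v => ⟨(v.1 : G) * s, mem_filter.2 ⟨mem_univ _, ?_, ?_⟩⟩
        left_inv := fun x => Subtype.ext (by simp [mul_assoc, hss])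
        right_inv := fun v => Subtype.ext (Subtype.ext (by simp [mul_assoc, hss])) }
    · show (x : G) * s * (s * ((x : G) * s) * s) = 1
      calc (x : G) * s * (s * ((x : G) * s) * s) = (x : G) * (s * s) * (x : G) * (s * s) := by
            group
        _ = 1 := by rw [hss, mul_one, mul_one, (mem_filter.1 x.2).2.1]
    · have h := congrArg Subtype.val (MonoidHom.mem_ker.1 v.2)
      change (v.1 : G) * (s * v.1 * s) = 1 at h
      rw [← h]; group
    · rw [mul_assoc, hss, mul_one]; exact v.1.2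
  have hclsX : ∀ x ∈ X, cls V x ⊆ X := by
    intro x hx y hy
    obtain ⟨v, hv, rfl⟩ := mem_cls.1 hy
    obtain ⟨-, h1, h2⟩ := mem_filter.1 hx
    refine mem_filter.2 ⟨mem_univ _, ?_, ?_⟩
    · rw [show v * x * v⁻¹ * (v * x * v⁻¹) = v * (x * x) * v⁻¹ by group, h1]
      simp
    · have e : v * x * v⁻¹ * s = v * ((x * s) * (s * v⁻¹ * s)) := by
        simp only [mul_assoc]
        rw [← mul_assoc s s, hss, one_mul]
      rw [e]
      exact mul_mem hv (mul_mem h2 (hsv _ (inv_mem hv)))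
  have hcard : ∀ x ∈ X, (cls V x).card = Nat.card φ.range := by
    intro x hx
    obtain ⟨-, -, h2⟩ := mem_filter.1 hx
    rw [← Nat.card_eq_finsetCard]
    have key : ∀ v ∈ V, v * x * v⁻¹ = (v * (s * v * s)) * x := by
      intro v hv
      have hvi : v⁻¹ = v := inv_eq_of_mul_eq_one_right (M.sq v hv)
      have hc := M.comm h2 (hsv v hv)
      calc v * x * v⁻¹ = v * (x * s) * (s * v * s) * s := by
            rw [hvi]
            calc v * x * v = v * x * (s * s) * v * (s * s) := by rw [hss, mul_one, mul_one]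
              _ = v * (x * s) * (s * v * s) * s := by simp only [mul_assoc]
        _ = v * ((x * s) * (s * v * s)) * s := by simp only [mul_assoc]
        _ = v * ((s * v * s) * (x * s)) * s := by rw [hc]
        _ = (v * (s * v * s)) * x := by simp only [mul_assoc]; rw [hss, mul_one]
    refine Nat.card_congr (Equiv.ofBijective
      (fun y : ↥(cls V x) => (⟨⟨(y : G) * x⁻¹, ?_⟩, ?_⟩ : ↥φ.range)) ⟨fun a b e => ?_, ?_⟩)
    · obtain ⟨v, hv, e⟩ := mem_cls.1 y.2
      rw [← e, key v hv, mul_inv_cancel_right]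
      exact mul_mem hv (hsv v hv)
    · obtain ⟨v, hv, e⟩ := mem_cls.1 y.2
      exact ⟨⟨v, hv⟩, Subtype.ext (by
        show v * (s * v * s) = (y : G) * x⁻¹
        rw [← e, key v hv, mul_inv_cancel_right])⟩
    · have := congrArg (fun q : ↥φ.range => ((q : ↥V) : G)) e
      exact Subtype.ext (mul_right_cancel (b := x⁻¹) this)
    · rintro ⟨_, v, rfl⟩
      exact ⟨⟨(v : G) * x * (v : G)⁻¹, mem_cls.2 ⟨v, v.2, rfl⟩⟩, Subtype.ext (Subtype.ext (by
        show (v : G) * x * (v : G)⁻¹ * x⁻¹ = v * (s * v * s)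
        rw [key v v.2, mul_inv_cancel_right]))⟩
  have hsX : s ∈ X := mem_filter.2 ⟨mem_univ _, hss, hss ▸ one_mem V⟩
  have hfib : ∀ c ∈ X.image (cls V), (X.filter fun x => cls V x = c).card = Nat.card φ.range := by
    intro c hc
    obtain ⟨x, hx, rfl⟩ := mem_image.1 hc
    rw [← hcard x hx]
    congr 1
    ext y
    rw [mem_filter]
    refine ⟨fun h => ?_, fun h => ⟨hclsX x hx h, cls_eq h⟩⟩
    rw [← h.2]
    exact mem_cls.2 ⟨1, one_mem V, by simp⟩
  refine ⟨X.image (cls V), mem_image_of_mem _ hsX, ?_, fun n hn hns c hc => ?_,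
    fun n hn c hc => ?_, ?_⟩
  · have h := card_eq_sum_card_image (cls V) X
    rw [sum_congr rfl hfib, sum_const, smul_eq_mul, hX] at h
    rw [hcard s hsX, ← h, ← Subgroup.index_ker, φ.ker.card_mul_index, M.card]
  · obtain ⟨x, hx, rfl⟩ := mem_image.1 hc
    obtain ⟨-, h1, h2⟩ := mem_filter.1 hx
    have hx' : n * x * n⁻¹ ∈ X := by
      refine mem_filter.2 ⟨mem_univ _, ?_, ?_⟩
      · rw [show n * x * n⁻¹ * (n * x * n⁻¹) = n * (x * x) * n⁻¹ by group, h1]
        simp
      · have e : n * x * n⁻¹ * s = n * (x * s) * n⁻¹ * (n * s * n⁻¹ * s) := by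
          simp only [mul_assoc]
          rw [inv_mul_cancel_left, ← mul_assoc s s, hss, one_mul]
        rw [e]
        exact mul_mem (hVn n hn _ h2) hns
    refine mem_image.2 ⟨_, hx', ?_⟩
    ext y
    simp only [mem_image, mem_cls]
    constructor
    · rintro ⟨v, hv, rfl⟩
      exact ⟨_, ⟨n⁻¹ * v * n, by simpa using hVn n⁻¹ (inv_mem hn) v hv, rfl⟩, by group⟩
    · rintro ⟨_, ⟨v, hv, rfl⟩, rfl⟩
      exact ⟨n * v * n⁻¹, hVn n hn v hv, by group⟩
  · obtain ⟨x, -, rfl⟩ := mem_image.1 hc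
    ext y
    simp only [mem_image, mem_cls]
    constructor
    · rintro ⟨_, ⟨v, hv, rfl⟩, rfl⟩
      exact ⟨n * v, mul_mem hn hv, by group⟩
    · rintro ⟨v, hv, rfl⟩
      exact ⟨_, ⟨n⁻¹ * v, mul_mem (inv_mem hn) hv, rfl⟩, by group⟩
  · have hdvd : Nat.card φ.range ∣ 2 ^ 11 := M.card ▸ Subgroup.card_subgroup_dvd_card _
    obtain ⟨j, -, hj⟩ := (Nat.dvd_prime_pow Nat.prime_two).1 hdvd
    exact ⟨j, by rw [hcard s hsX, hj]⟩

theorem exists_three_of_rep {s : G} (hs : s ∈ Subgroup.normalizer (V : Set G)) (hss : s * s = 1)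
    (h : Mathieu.toTab (M.Φ ⟨s, hs⟩ : Equiv.Perm GolayPt) = Mathieu.invFree ∨
      Mathieu.toTab (M.Φ ⟨s, hs⟩ : Equiv.Perm GolayPt) = Mathieu.invOctad) :
    ∃ k : G, orderOf k = 3 ∧ Commute k s := by
  classical
  set N := Subgroup.normalizer (V : Set G)
  obtain ⟨S, hsS, hcnt, hmove, hfixV, j, hj⟩ := M.classes s hss hs
  set σ := M.Φ ⟨s, hs⟩ with hσ
  let Γ : Subgroup ↥N := (Subgroup.centralizer {σ}).comap M.Φ
  letI iact : MulAction ↥Γ (Finset G) :=
    { smul := fun n c => c.image fun y => ((n : ↥N) : G) * y * ((n : ↥N) : G)⁻¹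
      one_smul := fun c => by
        show c.image _ = c
        simp
      mul_smul := fun a b c => by
        show c.image _ = (c.image _).image _
        rw [image_image]
        refine image_congr fun y _ => ?_
        simp [mul_assoc] }
  letI : SMul ↥Γ (Finset G) := iact.toSMul
  have hsmul : ∀ (n : ↥Γ) (c : Finset G),
      n • c = c.image fun y => ((n : ↥N) : G) * y * ((n : ↥N) : G)⁻¹ := fun _ _ => rfl
  have hstab : ∀ n : ↥Γ, ∀ c ∈ S, n • c ∈ S := by
    intro n c hc
    refine hmove _ n.1.2 ?_ c hc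
    have hn : Commute (M.Φ n.1) σ :=
      Subgroup.mem_centralizer_singleton_iff.1 n.2
    have hm := (M.mem_ker (n.1 * ⟨s, hs⟩ * n.1⁻¹ * ⟨s, hs⟩)).1 (by
      rw [map_mul, map_mul, map_mul, map_inv, ← hσ, hn.eq, mul_inv_cancel_right, hσ, ← map_mul,
        show (⟨s, hs⟩ : ↥N) * ⟨s, hs⟩ = 1 from Subtype.ext hss, map_one])
    simpa using hm
  have hker : ∀ n : ↥Γ, M.Φ n.1 = 1 → ∀ c ∈ S, n • c = c := fun n hn c hc =>
    hfixV _ ((M.mem_ker n.1).1 hn) c hc
  have lift : ∀ x : Equiv.Perm GolayPt, x ∈ M24 → Commute x (σ : Equiv.Perm GolayPt) →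
      ∃ n : ↥Γ, (M.Φ n.1 : Equiv.Perm GolayPt) = x := by
    intro x hx hxc
    obtain ⟨n, hn⟩ := M.surj ⟨x, hx⟩
    refine ⟨⟨n, Subgroup.mem_centralizer_singleton_iff.2 ?_⟩, by rw [hn]⟩
    rw [hn]
    exact Subtype.ext hxc.eq
  have hpow : ∀ (n : ↥Γ) (k : ℕ), (M.Φ n.1 : Equiv.Perm GolayPt) ^ k = 1 →
      ∀ c ∈ S, (n ^ k) • c = c := fun n k hk => hker _ (Subtype.ext (by
        rw [SubmonoidClass.coe_pow, map_pow, SubmonoidClass.coe_pow, hk]; rfl))
  -- an element over an element of order three keeping the class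
  obtain ⟨n, hn3, hnfix⟩ : ∃ n : ↥Γ, orderOf (M.Φ n.1 : Equiv.Perm GolayPt) = 3 ∧
      n • cls V s = cls V s := by
    rcases h with h | h
    · obtain ⟨τ, hτ, hτc, hτ3⟩ := free_data h
      obtain ⟨n, hn⟩ := lift τ hτ hτc
      have hI := M.le_card_cls hs (L := masksFree) (r := 32) rfl parity_ok.1
        (by rw [h]; exact data_ok.2.2.2.2.2.2.2.2.2.2.2.2.1)
      have hS : S.card ≤ 2 := by
        have : 1024 * S.card ≤ 2 ^ 11 := by
          calc 1024 * S.card = S.card * 32 * 32 := by ring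
            _ ≤ S.card * (cls V s).card * (cls V s).card :=
              Nat.mul_le_mul (Nat.mul_le_mul_left _ hI) hI
            _ = 2 ^ 11 := hcnt
        omega
      exact ⟨n, by rw [hn, hτ3], eq_of_small S hstab hS
        (hpow n 3 (by rw [hn, ← hτ3, pow_orderOf_eq_one])) hsS⟩
    · obtain ⟨a, ha, b, hb, hac, hbc, ha7, hb7, hab⟩ := octad_data h
      obtain ⟨na, hna⟩ := lift a ha hac
      obtain ⟨nb, hnb⟩ := lift b hb hbc
      have hw : (M.Φ (na * nb).1 : Equiv.Perm GolayPt) = a * b := by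
        rw [Subgroup.coe_mul, map_mul, Subgroup.coe_mul, hna, hnb]
      have hI := M.le_card_cls hs (L := masksOctad) (r := 16) rfl parity_ok.2
        (by rw [h]; exact data_ok.2.2.2.2.2.2.2.2.2.2.2.2.2)
      have hS : S.card ≤ 8 := by
        have : 256 * S.card ≤ 2 ^ 11 := by
          calc 256 * S.card = S.card * 16 * 16 := by ring
            _ ≤ S.card * (cls V s).card * (cls V s).card :=
              Nat.mul_le_mul (Nat.mul_le_mul_left _ hI) hI
            _ = 2 ^ 11 := hcnt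
        omega
      have h3 := hpow (na * nb) 3 (by rw [hw, ← hab, pow_orderOf_eq_one])
      by_cases hab' : na • cls V s = cls V s ∧ nb • cls V s = cls V s
      · exact ⟨na * nb, by rw [hw, hab], by rw [mul_smul, hab'.2, hab'.1]⟩
      · obtain ⟨g, hg⟩ : ∃ g : ↥Γ, (g * (na * nb) * g⁻¹) • cls V s = cls V s := by
          rcases not_and_or.1 hab' with hne | hne
          · exact exists_conj_fix_of_moved S hstab hS (hpow na 7 (by rw [hna, ha7])) h3 hsS hne
          · exact exists_conj_fix_of_moved S hstab hS (hpow nb 7 (by rw [hnb, hb7])) h3 hsS hne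
        refine ⟨_, ?_, hg⟩
        rw [Subgroup.coe_mul, Subgroup.coe_mul, InvMemClass.coe_inv, map_mul, map_mul, map_inv,
          Subgroup.coe_mul, Subgroup.coe_mul, InvMemClass.coe_inv, hw]
        rw [← MulAut.conj_apply, MulEquiv.orderOf_eq, hab]
  -- a power of order three
  set τ := M.Φ n.1
  have hτ3 : τ ^ 3 = 1 := Subtype.ext (by
    rw [SubmonoidClass.coe_pow, ← hn3, pow_orderOf_eq_one]; rfl)
  set x : G := ((n : ↥N) : G)
  have hx6 : x ^ 6 = 1 := by
    have h3V : x ^ 3 ∈ V := by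
      have := (M.mem_ker (n.1 ^ 3)).1 (by rw [map_pow]; exact hτ3)
      simpa using this
    rw [show (6 : ℕ) = 3 + 3 by norm_num, pow_add, M.sq _ h3V]
  set k := x ^ 4
  have hk3 : k ^ 3 = 1 := by
    rw [← pow_mul, show 4 * 3 = 6 * 2 by norm_num, pow_mul, hx6, one_pow]
  have hkne : k ≠ 1 := by
    intro e
    have h4 : τ ^ 4 = 1 := by
      rw [← map_pow, show n.1 ^ 4 = 1 from Subtype.ext e, map_one]
    rw [pow_succ, hτ3, one_mul] at h4
    rw [h4, OneMemClass.coe_one, orderOf_one] at hn3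
    norm_num at hn3
  have hkfix : (cls V s).image (fun y => k * y * k⁻¹) = cls V s := by
    have h4 : (n ^ 4) • cls V s = cls V s := by
      rw [pow_succ, pow_succ, pow_succ, pow_one, mul_smul, mul_smul, mul_smul, hnfix, hnfix,
        hnfix, hnfix]
    rw [hsmul] at h4
    simpa using h4
  let f : ↥(cls V s) → ↥(cls V s) := fun y =>
    ⟨k * y * k⁻¹, hkfix.le (mem_image_of_mem (fun y => k * y * k⁻¹) y.2)⟩
  have hf : ∀ y, f^[3 ^ 1] y = y := fun y => Subtype.ext (by
    show k * (k * (k * (y : G) * k⁻¹) * k⁻¹) * k⁻¹ = y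
    calc k * (k * (k * (y : G) * k⁻¹) * k⁻¹) * k⁻¹ = k ^ 3 * y * (k ^ 3)⁻¹ := by
          simp [pow_succ, mul_assoc]
      _ = y := by rw [hk3]; simp)
  have hmod := J4Type67.card_modEq f Nat.prime_three hf
  obtain ⟨⟨⟨y, hy⟩, hfy⟩⟩ : Nonempty {y // f y = y} := by
    by_contra hno
    rw [not_nonempty_iff] at hno
    rw [Nat.card_of_isEmpty (α := {y // f y = y}), Nat.card_eq_finsetCard, hj] at hmod
    have := Nat.prime_three.dvd_of_dvd_pow (Nat.modEq_zero_iff_dvd.1 hmod)
    norm_num at this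
  obtain ⟨v, hv, rfl⟩ := mem_cls.1 hy
  have hky : k * (v * s * v⁻¹) * k⁻¹ = v * s * v⁻¹ := congrArg Subtype.val hfy
  haveI : Fact (Nat.Prime 3) := ⟨Nat.prime_three⟩
  refine ⟨v⁻¹ * k * v, ?_, ?_⟩
  · rw [show v⁻¹ * k * v = MulAut.conj v⁻¹ k by simp, MulEquiv.orderOf_eq]
    exact orderOf_eq_prime hk3 hkne
  · show v⁻¹ * k * v * s = s * (v⁻¹ * k * v)
    have := congrArg (fun u => v⁻¹ * u * k * v) hky
    simpa [mul_assoc] using this

include M in
/-- Every involution of the normaliser outside `V` commutes with an element of order three. -/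
theorem exists_three {s : G} (hs : s ∈ Subgroup.normalizer (V : Set G)) (hsV : s ∉ V)
    (hss : s * s = 1) : ∃ k : G, orderOf k = 3 ∧ Commute k s := by
  set σ := M.Φ ⟨s, hs⟩
  haveI : Fact (Nat.Prime 2) := ⟨Nat.prime_two⟩
  have h2 : orderOf (σ : Equiv.Perm GolayPt) = 2 := by
    rw [Subgroup.orderOf_coe]
    refine orderOf_eq_prime ?_ fun e => hsV ((M.mem_ker ⟨s, hs⟩).1 e)
    rw [← map_pow, show (⟨s, hs⟩ : ↥(Subgroup.normalizer (V : Set G))) ^ 2 = 1 from
      Subtype.ext (by simpa [pow_two] using hss), map_one]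
  obtain ⟨c, hc, hrep⟩ : ∃ c ∈ M24,
      Mathieu.toTab (c * (σ : Equiv.Perm GolayPt) * c⁻¹) = Mathieu.invFree ∨
      Mathieu.toTab (c * (σ : Equiv.Perm GolayPt) * c⁻¹) = Mathieu.invOctad := by
    rcases Mathieu.exists_conj_involution σ.2 h2 with ⟨-, c, hc, e⟩ | ⟨-, c, hc, e⟩
    exacts [⟨c, hc, Or.inl e⟩, ⟨c, hc, Or.inr e⟩]
  obtain ⟨n, hn⟩ := M.surj ⟨c, hc⟩
  have hs' : (n : G) * s * (n : G)⁻¹ ∈ Subgroup.normalizer (V : Set G) :=
    mul_mem (mul_mem n.2 hs) (inv_mem n.2)
  obtain ⟨k, hk, hks⟩ := M.exists_three_of_rep hs'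
    (by rw [show (n : G) * s * (n : G)⁻¹ * ((n : G) * s * (n : G)⁻¹) =
      (n : G) * (s * s) * (n : G)⁻¹ by group, hss]; simp)
    (by
      have e : (⟨(n : G) * s * (n : G)⁻¹, hs'⟩ : ↥(Subgroup.normalizer (V : Set G))) =
          n * ⟨s, hs⟩ * n⁻¹ := Subtype.ext (by simp)
      rw [e, map_mul, map_mul, map_inv, hn]
      simpa using hrep)
  refine ⟨(n : G)⁻¹ * k * (n : G), ?_, ?_⟩
  · rw [show (n : G)⁻¹ * k * (n : G) = MulAut.conj (n : G)⁻¹ k by simp, MulEquiv.orderOf_eq, hk]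
  · show (n : G)⁻¹ * k * n * s = s * ((n : G)⁻¹ * k * n)
    have := congrArg (fun u => (n : G)⁻¹ * u * n) hks.eq
    simpa [mul_assoc] using this

end Model

end CfsgLib.J4Type13
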